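import Cfsg.Agent.Chars.Induced.Gallagher
import Cfsg.Agent.Chars.Induced.Ito

/-!
# Groups with two character degrees: basic facts

* `commutator_le_of_index_le`: a subgroup of index at most `m` contains the derived subgroup.
* `comm_of_coprime_index`: a group with a central subgroup of coprime index and abelian quotient
  is abelian.
-/

set_option autoImplicit false

namespace CfsgLib.TwoDegrees

open Cfsg CfsgLib.Chars CfsgLib.Chars.Induced
open scoped commutatorElement

universe u

variable {G : Type u} [Group G] [Finite G] {m : ℕ}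

/-- All degrees are `1` or `m`. -/
def Degrees (G : Type u) [Group G] (m : ℕ) : Prop :=
  ∀ χ : IrrCharacter G, charDegree (χ : G → ℂ) = 1 ∨ charDegree (χ : G → ℂ) = m

theorem Degrees.quotient (h : Degrees G m) (N : Subgroup G) [N.Normal] : Degrees (G ⧸ N) m :=
  fun χ => by rw [← charDegree_inflate N χ]; exact h _

theorem Degrees.eq_of_ne_one (h : Degrees G m) {χ : IrrCharacter G}
    (h1 : charDegree (χ : G → ℂ) ≠ 1) : charDegree (χ : G → ℂ) = m := (h χ).resolve_left h1

/-- A subgroup of index at most `m` contains the derived subgroup. -/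
theorem commutator_le_of_index_le (h : Degrees G m) (H : Subgroup G) (hH : H.index ≤ m) :
    commutator G ≤ H := by
  classical
  haveI := Fintype.ofFinite G
  haveI := Fintype.ofFinite H
  set π : G → ℂ := indFun H (fun _ => (1 : ℂ)) with hπ
  have hc : IsCharacter G π := isCharacter_indFun H isCharacter_one
  have hπ1 : π 1 = H.index := by rw [hπ, indFun_one_apply, mul_one]
  obtain ⟨s, hmem, hs⟩ := exists_eq_sum_mult hc
  have hone : mult π (oneChar G) = 1 := by
    apply Nat.cast_injective (R := ℂ)
    have h1 := mult_indFun H (θ := fun _ => (1 : ℂ)) isCharacter_one (oneChar G)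
    rw [← hπ] at h1
    rw [h1, show (fun h : H => (oneChar G : G → ℂ) h) = (oneChar H : H → ℂ) from
        funext fun h => by simp [oneChar_apply],
      show (fun _ : H => (1 : ℂ)) = (oneChar H : H → ℂ) from
        funext fun h => by simp [oneChar_apply], classInner_irr_self, Nat.cast_one]
  have hsum : H.index = ∑ η ∈ s, mult π η * charDegree (η : G → ℂ) := by
    apply Nat.cast_injective (R := ℂ)
    rw [← hπ1, congrFun hs 1, Finset.sum_apply, Nat.cast_sum]
    refine Finset.sum_congr rfl fun η _ => ?_
    rw [Nat.cast_mul, coe_charDegree η]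
    rfl
  have h0 : oneChar G ∈ s := (hmem _).2 (by rw [hone]; exact one_ne_zero)
  have hall : ∀ η ∈ s, commutator G ≤ charKer (η : G → ℂ) := by
    intro η hη
    rw [commutator_le_charKer_iff, ← charDegree_eq_one_iff]
    by_cases h1 : η = oneChar G
    · subst h1; exact charDegree_eq_of_map_one (by simp [oneChar_apply])
    rcases h η with he | he
    · exact he
    exfalso
    have hsub : ({η, oneChar G} : Finset (IrrCharacter G)) ⊆ s := by
      intro z hz
      rcases Finset.mem_insert.1 hz with e | e
      · exact e ▸ hη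
      · exact Finset.mem_singleton.1 e ▸ h0
    have hpair : ∑ z ∈ ({η, oneChar G} : Finset (IrrCharacter G)),
        mult π z * charDegree (z : G → ℂ) ≤ ∑ z ∈ s, mult π z * charDegree (z : G → ℂ) :=
      Finset.sum_le_sum_of_subset_of_nonneg hsub fun _ _ _ => Nat.zero_le _
    rw [Finset.sum_pair h1, hone, one_mul, ← hsum, charDegree_eq_of_map_one (n := 1)
      (show (oneChar G : G → ℂ) 1 = (1 : ℕ) by simp [oneChar_apply]), he] at hpair
    have hge : m ≤ mult π η * m :=
      Nat.le_mul_of_pos_left _ (Nat.pos_of_ne_zero ((hmem η).1 hη))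
    omega
  intro x hx
  by_contra hxH
  have h1 : π x = π 1 := by
    rw [hs]
    simp only [Finset.sum_apply, Pi.smul_apply, smul_eq_mul]
    exact Finset.sum_congr rfl fun η hη => by
      rw [map_eq_map_one_of_mem_charKer (hall η hη hx)]
  rw [hπ1, hπ] at h1
  simp only [indFun] at h1
  have hb : ∀ y : G, extendByZero H (fun _ : H => (1 : ℂ)) y =
      ((if y ∈ H then 1 else 0 : ℕ) : ℂ) := fun y => by
    by_cases hy : y ∈ H
    · rw [extendByZero_mem _ hy, if_pos hy, Nat.cast_one]
    · rw [extendByZero_notMem _ hy, if_neg hy, Nat.cast_zero]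
  simp only [hb, ← Nat.cast_sum] at h1
  rw [inv_mul_eq_iff_eq_mul₀ (Nat.cast_ne_zero.2 Nat.card_pos.ne'), ← Nat.cast_mul,
    Subgroup.card_mul_index, Nat.cast_inj] at h1
  have h2 : ∑ y : G, (if y⁻¹ * x * y ∈ H then 1 else 0) < ∑ _y : G, 1 :=
    Finset.sum_lt_sum (fun y _ => by split_ifs <;> simp) ⟨1, Finset.mem_univ _, by simp [hxH]⟩
  rw [h1, Finset.sum_const, Finset.card_univ, smul_eq_mul, mul_one, Nat.card_eq_fintype_card] at h2
  exact lt_irrefl _ h2

omit [Finite G] in
theorem commutatorElement_pow_left {x y : G} (h : ∀ g : G, g * ⁅x, y⁆ = ⁅x, y⁆ * g) :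
    ∀ j : ℕ, ⁅x ^ j, y⁆ = ⁅x, y⁆ ^ j := by
  intro j
  induction j with
  | zero => simp [commutatorElement_def]
  | succ j ih =>
    have hc : x * ⁅x, y⁆ ^ j = ⁅x, y⁆ ^ j * x := ((show Commute x ⁅x, y⁆ from h x).pow_right j).eq
    calc ⁅x ^ (j + 1), y⁆ = x * ⁅x ^ j, y⁆ * x⁻¹ * ⁅x, y⁆ := by
          simp only [commutatorElement_def, pow_succ']; group
      _ = _ := by rw [ih, hc, mul_inv_cancel_right, pow_succ]

/-- Elements commute when their commutator is central of order prime to a power of the first
falling into the centraliser of the second. -/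
theorem comm_of_coprime_index (M : Subgroup G) (hM : ∀ a ∈ M, ∀ g : G, g * a = a * g) [M.Normal]
    (hcop : Nat.Coprime (Nat.card M) M.index) {x y : G} (hxy : ⁅x, y⁆ ∈ M) : x * y = y * x := by
  have h1 := commutatorElement_pow_left (hM _ hxy) M.index
  rw [commutatorElement_eq_one_iff_mul_comm.2 (hM _ (M.pow_index_mem x) y).symm] at h1
  rw [← commutatorElement_eq_one_iff_mul_comm, ← orderOf_eq_one_iff]
  exact Nat.eq_one_of_dvd_coprimes hcop (Subgroup.orderOf_dvd_natCard _ hxy)
    (orderOf_dvd_of_pow_eq_one h1.symm)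

end CfsgLib.TwoDegrees
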