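import Cfsg.Agent.Chars.TwoDegrees.Basic
import Cfsg.Agent.Chars.Induced.Extension
import Cfsg.Agent.Chars.Induced.Clifford

/-!
# Two degrees: a noncentral abelian normal subgroup of coprime index
-/

set_option autoImplicit false

namespace CfsgLib.TwoDegrees

open Cfsg CfsgLib.Chars CfsgLib.Chars.Induced
open scoped commutatorElement

universe u

variable {G : Type u} [Group G] [Finite G] {m : ℕ} (M : Subgroup G) [M.Normal]

/-- Conjugation on linear characters. -/
noncomputable def act (g : G) (l : M →* ℂˣ) : M →* ℂˣ :=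
  l.comp (MulAut.conjNormal g⁻¹ : MulAut M).toMonoidHom

omit [Finite G] in
theorem act_apply (g : G) (l : M →* ℂˣ) (x : M) : act M g l x = l (MulAut.conjNormal g⁻¹ x) := rfl

omit [Finite G] in
theorem act_mul (g h : G) (l : M →* ℂˣ) : act M (g * h) l = act M g (act M h l) :=
  MonoidHom.ext fun x => by simp only [act_apply, mul_inv_rev, map_mul, MulAut.mul_apply]

omit [Finite G] in
theorem act_one (l : M →* ℂˣ) : act M 1 l = l :=
  MonoidHom.ext fun x => by simp [act_apply]

omit [Finite G] in
theorem act_hom (g : G) (l l' : M →* ℂˣ) : act M g (l * l') = act M g l * act M g l' := rfl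

/-- The stabiliser of a linear character. -/
def stab (l : M →* ℂˣ) : Subgroup G where
  carrier := {g | act M g l = l}
  one_mem' := act_one M l
  mul_mem' := fun {a b} (ha : _ = l) (hb : _ = l) => show _ = l by rw [act_mul, hb, ha]
  inv_mem' := fun {a} (ha : _ = l) => show _ = l by
    conv_lhs => rw [← ha]
    rw [← act_mul, inv_mul_cancel, act_one]

omit [Finite G] in
theorem mem_stab {l : M →* ℂˣ} {g : G} : g ∈ stab M l ↔ act M g l = l := Iff.rfl

omit [Finite G] in
theorem le_stab (hab : ∀ a ∈ M, ∀ b ∈ M, a * b = b * a) (l : M →* ℂˣ) : M ≤ stab M l := by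
  intro g hg
  refine MonoidHom.ext fun x => congrArg l (Subtype.ext ?_)
  show ((MulAut.conjNormal g⁻¹ x : M) : G) = x
  rw [MulAut.conjNormal_apply, inv_inv, hab g⁻¹ (inv_mem hg) x.1 x.2, inv_mul_cancel_right]

omit [Finite G] in
theorem stab_eq_inertia (l : M →* ℂˣ) : stab M l = inertia M (linChar l : M → ℂ) := by
  ext g
  rw [mem_stab, mem_inertia]
  constructor
  · intro h
    funext x
    rw [conjFun_apply, linChar_apply, linChar_apply]
    refine (congrArg (fun y : M => (l y : ℂ)) (Subtype.ext ?_)).trans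
      (congrArg Units.val (DFunLike.congr_fun h x))
    simp
  · intro h
    refine MonoidHom.ext fun x => Units.ext ?_
    have h1 := congrFun h x
    rw [conjFun_apply, linChar_apply, linChar_apply] at h1
    refine (congrArg (fun y : M => (l y : ℂ)) (Subtype.ext ?_)).trans h1
    simp

variable {M}

/-- The stabiliser of a moved linear character has index `m` and its derived subgroup lies in `M`. -/
theorem stab_facts (h : Degrees G m) (hab : ∀ a ∈ M, ∀ b ∈ M, a * b = b * a)
    (hcop : Nat.Coprime (Nat.card M) M.index) (l : M →* ℂˣ) (hl : stab M l ≠ ⊤) :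
    (stab M l).index = m ∧ ∀ x ∈ stab M l, ∀ y ∈ stab M l, ⁅x, y⁆ ∈ M := by
  classical
  haveI := Fintype.ofFinite G
  haveI := Fintype.ofFinite M
  set T := stab M l with hTdef
  haveI := Fintype.ofFinite T
  have hMT : M ≤ T := le_stab M hab l
  have hT : T = inertia M (linChar l : M → ℂ) := stab_eq_inertia M l
  set M' := M.subgroupOf T
  haveI : M'.Normal := inferInstance
  haveI := Fintype.ofFinite M'
  let e : M' ≃* M := Subgroup.subgroupOfEquivOfLe hMT
  let l' : M' →* ℂˣ := l.comp e.toMonoidHom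
  have hinv : ∀ (g : T) (x : M'), l' (MulAut.conjNormal g x) = l' x := by
    intro g x
    have hg : act M ((g⁻¹ : T) : G) l = l := (g⁻¹).2
    refine (congrArg l (Subtype.ext ?_)).trans (DFunLike.congr_fun hg (e x))
    show ((MulAut.conjNormal g x : M') : T).1 = ((MulAut.conjNormal ((g⁻¹ : T) : G)⁻¹ (e x) : M) : G)
    rw [MulAut.conjNormal_apply, MulAut.conjNormal_apply]
    simp [e, Subgroup.subgroupOfEquivOfLe]
  have hcop' : Nat.Coprime M'.index (orderOf l') := by
    refine Nat.Coprime.coprime_dvd_right ?_ (Nat.Coprime.coprime_dvd_left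
      (show M'.index ∣ M.index from Subgroup.relIndex_dvd_index_of_le hMT) hcop.symm)
    refine orderOf_dvd_of_pow_eq_one (MonoidHom.ext fun x => ?_)
    rw [MonoidHom.pow_apply, MonoidHom.one_apply, ← map_pow]
    show l (e (x ^ Nat.card M)) = 1
    rw [map_pow, pow_card_eq_one', map_one]
  obtain ⟨δ, hδ, -⟩ := exists_linear_extension l' hinv hcop'
  -- irreducible characters above `l` come from irreducible characters of the stabiliser
  have key : ∀ ψ : IrrCharacter T,
      (∀ x : M, (ψ : T → ℂ) (Subgroup.inclusion hMT x) = (charDegree (ψ : T → ℂ) : ℂ) * l x) →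
      charDegree (ψ : T → ℂ) = 1 ∧ T.index = m := by
    intro ψ hψ
    have hmult : mult (fun n : M => (ψ : T → ℂ) (Subgroup.inclusion hMT n)) (linChar l) ≠ 0 := by
      rw [mult_ne_zero_iff (isCharacter_comp (isCharacter_coe ψ) _),
        show (fun n : M => (ψ : T → ℂ) (Subgroup.inclusion hMT n)) =
          (charDegree (ψ : T → ℂ) : ℂ) • (linChar l : M → ℂ) from funext fun x => by
            rw [hψ, Pi.smul_apply, smul_eq_mul, linChar_apply],
        CfsgLib.Chars.classInner_smul_left, classInner_irr_self, mul_one]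
      exact Nat.cast_ne_zero.2 (charDegree_pos ψ).ne'
    let χ : IrrCharacter G := ⟨_, isIrrCharacter_indFun_inertia hT hMT ψ hmult⟩
    have hdeg : charDegree (χ : G → ℂ) = T.index * charDegree (ψ : T → ℂ) :=
      charDegree_eq_of_map_one (by
        show indFun T (ψ : T → ℂ) 1 = _
        rw [indFun_one_apply, Nat.cast_mul, coe_charDegree])
    have hidx : 2 ≤ T.index := by
      have h0 : T.index ≠ 0 := Subgroup.index_ne_zero_of_finite
      have h1 : T.index ≠ 1 := fun h1 => hl (Subgroup.index_eq_one.1 h1)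
      omega
    have hm : charDegree (χ : G → ℂ) = m := h.eq_of_ne_one (by
      rw [hdeg]; intro h1; have := Nat.eq_one_of_mul_eq_one_right h1; omega)
    -- the linear extension gives the index
    let ψ0 : IrrCharacter T := linChar δ
    have hψ0 : mult (fun n : M => (ψ0 : T → ℂ) (Subgroup.inclusion hMT n)) (linChar l) ≠ 0 := by
      rw [mult_ne_zero_iff (isCharacter_comp (isCharacter_coe ψ0) _),
        show (fun n : M => (ψ0 : T → ℂ) (Subgroup.inclusion hMT n)) = (linChar l : M → ℂ) from
          funext fun x => by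
            have h2 := hδ ⟨Subgroup.inclusion hMT x, x.2⟩
            simp only [ψ0, linChar_apply]
            exact congrArg Units.val (h2.trans (congrArg l (Subtype.ext rfl))),
        classInner_irr_self]
      exact one_ne_zero
    let χ0 : IrrCharacter G := ⟨_, isIrrCharacter_indFun_inertia hT hMT ψ0 hψ0⟩
    have hdeg0 : charDegree (χ0 : G → ℂ) = T.index :=
      charDegree_eq_of_map_one (by
        show indFun T (ψ0 : T → ℂ) 1 = _
        rw [indFun_one_apply]; simp [ψ0])
    have hm0 : T.index = m := hdeg0 ▸ h.eq_of_ne_one (by rw [hdeg0]; omega)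
    refine ⟨?_, hm0⟩
    rw [hdeg, hm0] at hm
    exact Nat.eq_of_mul_eq_mul_left (by omega) (hm.trans (mul_one m).symm)
  refine ⟨(key (linChar δ) fun x => by
    rw [charDegree_linChar, Nat.cast_one, one_mul, linChar_apply]
    exact congrArg Units.val ((hδ ⟨Subgroup.inclusion hMT x, x.2⟩).trans
      (congrArg l (Subtype.ext rfl)))).2, fun x hx y hy => ?_⟩
  -- the quotient is abelian
  have hlin : ∀ β : IrrCharacter (T ⧸ M'), charDegree (β : T ⧸ M' → ℂ) = 1 := by
    intro β
    let ψ : IrrCharacter T := ⟨_, isIrrCharacter_linear_mul (inflate M' β).2 δ⟩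
    have hd : charDegree (ψ : T → ℂ) = charDegree (β : T ⧸ M' → ℂ) :=
      charDegree_eq_of_map_one (by simp [ψ, coe_charDegree])
    have := (key ψ fun z => by
      show (δ (Subgroup.inclusion hMT z) : ℂ) * (inflate M' β : T → ℂ) (Subgroup.inclusion hMT z) = _
      have h2 := (hδ ⟨Subgroup.inclusion hMT z, z.2⟩).trans (congrArg l (Subtype.ext rfl : e ⟨Subgroup.inclusion hMT z, z.2⟩ = z))
      rw [inflate_apply, (QuotientGroup.eq_one_iff (N := M') _).2 (show Subgroup.inclusion hMT z ∈ M' from z.2),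
        ← coe_charDegree β, hd, mul_comm]
      exact congrArg (fun u : ℂˣ => (charDegree (β : T ⧸ M' → ℂ) : ℂ) * u) h2).1
    rwa [hd] at this
  have hcomm : commutator (T ⧸ M') = ⊥ :=
    commutator_eq_bot_iff.2 fun β => (charDegree_eq_one_iff β).1 (hlin β)
  have h3 : QuotientGroup.mk' M' ⁅(⟨x, hx⟩ : T), ⟨y, hy⟩⁆ ∈ commutator (T ⧸ M') := by
    rw [map_commutatorElement, commutator_def]
    exact Subgroup.commutator_mem_commutator (Subgroup.mem_top _) (Subgroup.mem_top _)
  rw [hcomm, Subgroup.mem_bot, QuotientGroup.mk'_apply, QuotientGroup.eq_one_iff] at h3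
  exact h3

/-- The main lemma. -/
theorem exists_abelian_of_coprime (h : Degrees G m) (hab : ∀ a ∈ M, ∀ b ∈ M, a * b = b * a)
    (hcop : Nat.Coprime (Nat.card M) M.index) (hnc : ¬ M ≤ Subgroup.center G) :
    ∃ A : Subgroup G, A.Normal ∧ (∀ a ∈ A, ∀ b ∈ A, a * b = b * a) ∧ A.index = m := by
  classical
  haveI := Fintype.ofFinite M
  haveI : IsMulCommutative M := ⟨⟨fun a b => Subtype.ext (hab _ a.2 _ b.2)⟩⟩
  -- a moved character
  have hsep : ∀ x y : M, (∀ l : M →* ℂˣ, l x = l y) → x = y := by
    intro x y hxy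
    by_contra hne
    have : x * y⁻¹ ∉ commutator M := by
      intro hm
      have hb : commutator M = ⊥ := commutator_eq_bot_iff.2 fun θ => map_one_eq_one_of_isMulCommutative θ
      rw [hb, Subgroup.mem_bot, mul_inv_eq_one] at hm
      exact hne hm
    obtain ⟨l, hl⟩ := exists_linChar_ne_one this
    exact hl (by rw [map_mul, map_inv, hxy l, mul_inv_cancel])
  have hcent : ∀ g : G, (∀ l : M →* ℂˣ, act M g l = l) → ∀ a ∈ M, g * a = a * g := by
    intro g hg a ha
    have h1 := hsep (MulAut.conjNormal g⁻¹ ⟨a, ha⟩) ⟨a, ha⟩ fun l => DFunLike.congr_fun (hg l) _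
    have h2 : g⁻¹ * a * g = a := by simpa using congrArg Subtype.val h1
    calc g * a = g * (g⁻¹ * a * g) := by rw [h2]
      _ = a * g := by group
  obtain ⟨l, hl⟩ : ∃ l : M →* ℂˣ, stab M l ≠ ⊤ := by
    by_contra! hall
    exact hnc fun a ha => Subgroup.mem_center_iff.2 fun g =>
      hcent g (fun l => by rw [← mem_stab M, hall l]; trivial) a ha
  -- the derived subgroup fixes all
  have hidx : ∀ μ : M →* ℂˣ, stab M μ ≠ ⊤ → (stab M μ).index = m := fun μ hμ =>
    (stab_facts h hab hcop μ hμ).1
  have hder : ∀ μ : M →* ℂˣ, commutator G ≤ stab M μ := fun μ => by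
    by_cases hμ : stab M μ = ⊤
    · rw [hμ]; exact le_top
    · exact commutator_le_of_index_le h _ (hidx μ hμ).le
  have hswap : ∀ (g k : G) (μ : M →* ℂˣ), act M g (act M k μ) = act M k (act M g μ) := by
    intro g k μ
    have hc : ⁅k⁻¹, g⁻¹⁆ ∈ stab M μ :=
      hder μ (by rw [commutator_def]; exact Subgroup.commutator_mem_commutator (Subgroup.mem_top _) (Subgroup.mem_top _))
    rw [← act_mul, ← act_mul, show g * k = k * g * ⁅g⁻¹, k⁻¹⁆ by
      simp only [commutatorElement_def]; group, act_mul _ (k * g)]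
    congr 1
    rw [← commutatorElement_inv] at hc
    exact (mem_stab M).1 (inv_mem_iff.1 hc)
  set T := stab M l with hTdef
  have hMT : M ≤ T := le_stab M hab l
  -- averaging over the stabiliser
  set D := M.subgroupOf T with hD
  haveI := Fintype.ofFinite (T ⧸ D)
  set s := Nat.card (T ⧸ D) with hs
  have hsdvd : s ∣ M.index := by
    rw [hs, ← Subgroup.index_eq_card]
    exact Subgroup.relIndex_dvd_index_of_le hMT
  have hpowD : ∀ μ : M →* ℂˣ, μ ^ Nat.card M = 1 := fun μ => MonoidHom.ext fun x => by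
    rw [MonoidHom.pow_apply, MonoidHom.one_apply, ← map_pow, pow_card_eq_one', map_one]
  obtain ⟨k, hk⟩ : ∃ k : ℕ, ∀ μ : M →* ℂˣ, (μ ^ s) ^ k = μ := by
    haveI : NeZero (Nat.card M) := ⟨Nat.card_pos.ne'⟩
    refine ⟨((s : ZMod (Nat.card M))⁻¹).val, fun μ => ?_⟩
    refine ((pow_mul μ s _).symm.trans ?_).trans (pow_one μ)
    refine (pow_eq_pow_iff_modEq (G := M →* ℂˣ) (x := μ)).2 (Nat.ModEq.of_dvd (orderOf_dvd_iff_pow_eq_one.2 (hpowD μ)) ?_)
    rw [← ZMod.natCast_eq_natCast_iff, Nat.cast_mul, ZMod.natCast_zmod_val, Nat.cast_one]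
    exact ZMod.coe_mul_inv_eq_one s (Nat.Coprime.coprime_dvd_left hsdvd hcop.symm)
  let N : (M →* ℂˣ) → (M →* ℂˣ) := fun μ => ∏ q : T ⧸ D, act M ((q.out : T) : G) μ
  have hNhom : ∀ μ ν, N (μ * ν) = N μ * N ν := fun μ ν => by
    simp only [N, act_hom, Finset.prod_mul_distrib]
  let Nh : (M →* ℂˣ) →* (M →* ℂˣ) := MonoidHom.mk' N hNhom
  have hactD : ∀ (t t' : T) (μ : M →* ℂˣ), (t : T ⧸ D) = (t' : T ⧸ D) →
      act M (t : G) μ = act M (t' : G) μ := by
    intro t t' μ ht
    have hd : ((t⁻¹ * t' : T) : G) ∈ M := (QuotientGroup.eq (s := D)).1 ht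
    rw [show (t' : G) = (t : G) * ((t⁻¹ * t' : T) : G) by simp, act_mul, (mem_stab M).1 (le_stab M hab μ hd)]
  let A' : G → ((M →* ℂˣ) →* (M →* ℂˣ)) := fun g => MonoidHom.mk' (act M g) (act_hom M g)
  have hNcomm : ∀ g μ, N (act M g μ) = act M g (N μ) := fun g μ => by
    show _ = A' g (∏ q : T ⧸ D, _)
    rw [map_prod]
    exact Finset.prod_congr rfl fun q _ => hswap _ _ _
  have hNfix : ∀ t ∈ T, ∀ μ, act M t (N μ) = N μ := fun t ht μ => by
    show A' t (∏ q : T ⧸ D, _) = _
    rw [map_prod]
    refine Fintype.prod_equiv (Equiv.mulLeft (QuotientGroup.mk' D ⟨t, ht⟩)) _ _ fun q => ?_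
    show act M t _ = _
    rw [← act_mul]
    refine hactD (⟨t, ht⟩ * q.out) _ μ ?_
    simp
  have hNfixed : ∀ μ, (∀ t ∈ T, act M t μ = μ) → N μ = μ ^ s := fun μ hμ => by
    show (∏ q : T ⧸ D, _) = _
    rw [Finset.prod_congr rfl (g := fun _ => μ) (fun q _ => hμ _ q.out.2), Finset.prod_const,
      Finset.card_univ, hs, Nat.card_eq_fintype_card]
  -- all stabilisers of moved characters agree
  have hTtop : T.index = m := hidx l hl
  have heq : ∀ {K : Subgroup G}, K ≤ T → K.index = m → K = T := by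
    intro K hle hi
    refine Subgroup.eq_of_le_of_card_ge hle ?_
    have e1 := T.card_mul_index
    rw [← K.card_mul_index, hTtop, hi] at e1
    exact (Nat.eq_of_mul_eq_mul_right (hTtop ▸ Nat.pos_of_ne_zero Subgroup.index_ne_zero_of_finite) e1).le
  have hall : ∀ μ : M →* ℂˣ, T ≤ stab M μ := by
    intro μ
    by_cases hμ : stab M μ = ⊤
    · rw [hμ]; exact le_top
    set α := (N μ) ^ k with hα
    have hαT : T ≤ stab M α := fun t ht => by
      rw [mem_stab M]
      refine (map_pow (A' t) (N μ) k).trans ?_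
      show (act M t (N μ)) ^ k = _
      rw [hNfix t ht μ]
    have hμα : stab M μ ≤ stab M α := fun g hg => by
      rw [mem_stab M]
      refine (map_pow (A' g) (N μ) k).trans ?_
      show (act M g (N μ)) ^ k = _
      rw [← hNcomm, (mem_stab M).1 hg]
    have hsame : ∀ {K : Subgroup G}, K.index = m → K ≤ T → T ≤ K := fun hi hle => (heq hle hi).ge
    by_cases hαtop : stab M α = ⊤
    swap
    · have e1 : T = stab M α := by
        have hi := hidx α hαtop
        refine Subgroup.eq_of_le_of_card_ge hαT ?_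
        have e1 := T.card_mul_index
        rw [← (stab M α).card_mul_index, hTtop, hi] at e1
        exact (Nat.eq_of_mul_eq_mul_right (hTtop ▸ Nat.pos_of_ne_zero Subgroup.index_ne_zero_of_finite) e1).ge
      exact hsame (hidx μ hμ) (e1 ▸ hμα)
    set β := μ * α⁻¹ with hβ
    have hαfix : ∀ g : G, act M g α = α := fun g => by rw [← mem_stab M, hαtop]; trivial
    have hNβ : N β = 1 := by
      refine ((map_mul Nh μ α⁻¹).trans (congrArg (Nh μ * ·) (map_inv Nh α))).trans ?_
      refine mul_inv_eq_one.2 ?_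
      show N μ = N α
      rw [hNfixed α fun t _ => hαfix t, hα]
      refine Eq.symm ?_
      refine (pow_mul (N μ) k s).symm.trans ?_
      rw [mul_comm k s]
      exact (pow_mul (N μ) s k).trans (hk _)
    have hβstab : stab M β = stab M μ := by
      ext g
      rw [mem_stab, mem_stab]
      rw [hβ, show act M g (μ * α⁻¹) = act M g μ * (act M g α)⁻¹ from
        (map_mul (A' g) μ α⁻¹).trans (congrArg (A' g μ * ·) (map_inv (A' g) α))]
      rw [hαfix g, mul_left_inj]
    set γ := l * β with hγ
    have hγle : stab M γ ≤ T ⊓ stab M β := by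
      intro g hg
      have h1 : act M g (N γ) = N γ := by rw [← hNcomm, (mem_stab M).1 hg]
      have h2 : N γ = l ^ s := by
        rw [hγ, hNhom, hNβ, hNfixed l fun t ht => ht]
        exact mul_one (M := M →* ℂˣ) (l ^ s)
      rw [h2] at h1
      have hl' : act M g l = l := by
        have h3 := congrArg (fun z => z ^ k) h1
        rw [show (act M g (l ^ s)) = (act M g l) ^ s from map_pow (A' g) l s] at h3
        rwa [hk, hk] at h3
      refine ⟨hl', ?_⟩
      have h4 := (mem_stab M).1 hg
      rw [hγ, act_hom, hl', mul_right_inj] at h4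
      exact h4
    have hγne : stab M γ ≠ ⊤ := fun h0 => hl (top_le_iff.1 ((h0.ge.trans hγle).trans inf_le_left))
    rw [← hβstab]
    exact (heq (hγle.trans inf_le_left) (hidx γ hγne)).ge.trans (hγle.trans inf_le_right)
  -- the stabiliser is the centraliser
  have hTcent : ∀ g ∈ T, ∀ a ∈ M, g * a = a * g := fun g hg =>
    hcent g fun μ => (mem_stab M).1 (hall μ hg)
  have hTn : T.Normal := by
    refine ⟨fun g hg x => (mem_stab M).2 ?_⟩
    rw [act_mul, act_mul, (mem_stab M).1 (hall (act M x⁻¹ l) hg), ← act_mul, mul_inv_cancel, act_one]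
  refine ⟨T, hTn, fun a ha b hb => ?_, hTtop⟩
  have hc := (stab_facts h hab hcop l hl).2 a ha b hb
  exact congrArg Subtype.val (comm_of_coprime_index (M.subgroupOf T)
    (fun c hc g => Subtype.ext (hTcent g.1 g.2 c.1 hc))
    (by
      rw [Nat.card_congr (Subgroup.subgroupOfEquivOfLe hMT).toEquiv]
      exact hcop.coprime_dvd_right (Subgroup.relIndex_dvd_index_of_le hMT))
    (x := ⟨a, ha⟩) (y := ⟨b, hb⟩) hc)

end CfsgLib.TwoDegrees
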