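import Cfsg.Agent.Chars.TwoDegrees.Coprime
import Cfsg.Agent.Chars.Apps.ThompsonComplement
import Cfsg.Agent.Chars.Apps.MonomialGroups

/-!
# Groups with two character degrees: structure and the derived subgroup
-/

set_option autoImplicit false

namespace CfsgLib.TwoDegrees

open Cfsg CfsgLib.Chars CfsgLib.Chars.Induced CfsgLib.Chars.Apps
open scoped commutatorElement Pointwise

universe u

variable {G : Type u} [Group G] [Finite G] {m : ℕ}

/-- A normal subgroup of order prime to `m` is abelian. -/
theorem comm_of_coprime (h : Degrees G m) (M : Subgroup G) [M.Normal]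
    (hcop : Nat.Coprime (Nat.card M) m) : ∀ a ∈ M, ∀ b ∈ M, a * b = b * a := by
  classical
  haveI := Fintype.ofFinite G
  haveI := Fintype.ofFinite M
  have hlin : ∀ θ : IrrCharacter M, (θ : M → ℂ) 1 = 1 := by
    intro θ
    obtain ⟨χ, hχ⟩ := exists_mult_ne_zero (isCharacter_indFun M (isCharacter_coe θ)) fun h0 => by
      have h1 := congrFun h0 1
      rw [indFun_one_apply, Pi.zero_apply] at h1
      rcases mul_eq_zero.1 h1 with h2 | h2
      · exact Subgroup.index_ne_zero_of_finite (Nat.cast_eq_zero.1 h2)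
      · exact map_one_ne_zero θ h2
    have hmult : mult (fun n : M => (χ : G → ℂ) n) θ ≠ 0 := by rwa [← mult_indFun_irr]
    have hd : (charDegree (χ : G → ℂ) : ℂ) = ((mult (fun n : M => (χ : G → ℂ) n) θ *
        (inertia M (θ : M → ℂ)).index * charDegree (θ : M → ℂ) : ℕ) : ℂ) := by
      push_cast
      rw [coe_charDegree, coe_charDegree]
      exact clifford_one χ θ hmult
    have hdvd : charDegree (θ : M → ℂ) ∣ charDegree (χ : G → ℂ) := by
      rw [Nat.cast_inj.1 hd]; exact dvd_mul_left _ _
    rw [← charDegree_eq_one_iff]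
    rcases h χ with he | he
    · exact Nat.eq_one_of_dvd_one (he ▸ hdvd)
    · exact Nat.eq_one_of_dvd_coprimes hcop (charDegree_dvd_card θ) (he ▸ hdvd)
  intro a ha b hb
  have h1 : commutator M = ⊥ := commutator_eq_bot_iff.2 hlin
  have h2 : ⁅(⟨a, ha⟩ : M), ⟨b, hb⟩⁆ ∈ commutator M := by
    rw [commutator_def]
    exact Subgroup.commutator_mem_commutator (Subgroup.mem_top _) (Subgroup.mem_top _)
  rw [h1, Subgroup.mem_bot, commutatorElement_eq_one_iff_mul_comm] at h2
  exact congrArg Subtype.val h2

/-- Nonlinear characters exist only if the derived subgroup is nontrivial. -/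
theorem exists_not_comm (hm : ∃ χ : IrrCharacter G, charDegree (χ : G → ℂ) = m) (hm1 : m ≠ 1) :
    ¬ commutator G = ⊥ := fun hb => by
  obtain ⟨χ, hχ⟩ := hm
  exact hm1 (hχ ▸ (charDegree_eq_one_iff χ).2 (map_one_eq_one_of_commutator_eq_bot hb χ))

/-- Two degrees: structure. -/
theorem structure_thm (h : Degrees G m) (hm : ∃ χ : IrrCharacter G, charDegree (χ : G → ℂ) = m)
    (hm1 : m ≠ 1) :
    (∃ A : Subgroup G, A.Normal ∧ (∀ a ∈ A, ∀ b ∈ A, a * b = b * a) ∧ A.index = m) ∨
      ∃ p e : ℕ, p.Prime ∧ m = p ^ e ∧ ∃ P A : Subgroup G, P.Normal ∧ A.Normal ∧ IsPGroup p P ∧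
        (∀ a ∈ A, ∀ b ∈ A, a * b = b * a) ∧ (∀ a ∈ A, ∀ g : G, g * a = a * g) ∧
        P ⊓ A = ⊥ ∧ P ⊔ A = ⊤ := by
  classical
  have hm0 : m ≠ 0 := by
    obtain ⟨χ, hχ⟩ := hm
    exact hχ ▸ (charDegree_pos χ).ne'
  have hcompl : ∀ p : ℕ, p.Prime → p ∣ m → ∃ N : Subgroup G, N.Normal ∧
      (Nat.card N).Coprime p ∧ ∃ k : ℕ, N.index = p ^ k := by
    intro p hp hpm
    haveI : Fact p.Prime := ⟨hp⟩
    exact exists_normal_complement_of_dvd fun χ hχ => (h.eq_of_ne_one hχ) ▸ hpm
  by_cases hpp : ∃ p e : ℕ, p.Prime ∧ m = p ^ e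
  · obtain ⟨p, e, hp, hme⟩ := hpp
    haveI : Fact p.Prime := ⟨hp⟩
    have hpm : p ∣ m := hme ▸ dvd_pow_self p (fun h0 => hm1 (by rw [hme, h0, pow_zero]))
    obtain ⟨N, hN, hNp, k, hk⟩ := hcompl p hp hpm
    haveI := hN
    have hab := comm_of_coprime h N (hme ▸ hNp.pow_right e)
    have hcop : Nat.Coprime (Nat.card N) N.index := hk ▸ hNp.pow_right k
    by_cases hc : N ≤ Subgroup.center G
    swap
    · exact Or.inl (exists_abelian_of_coprime h hab hcop hc)
    refine Or.inr ⟨p, e, hp, hme, ?_⟩
    obtain ⟨P⟩ : Nonempty (Sylow p G) := inferInstance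
    have hcomm : ∀ a ∈ N, ∀ g : G, g * a = a * g := fun a ha g =>
      Subgroup.mem_center_iff.1 (hc ha) g
    have hPc : Nat.card (P : Subgroup G) = p ^ k := by
      rw [P.card_eq_multiplicity, ← N.card_mul_index, hk,
        Nat.factorization_mul Nat.card_pos.ne' (pow_ne_zero _ hp.ne_zero), Finsupp.add_apply,
        Nat.factorization_eq_zero_of_not_dvd ((hp.coprime_iff_not_dvd).1 hNp.symm), zero_add,
        hp.factorization_pow, Finsupp.single_eq_same]
    have hdisj : (P : Subgroup G) ⊓ N = ⊥ :=
      Subgroup.inf_eq_bot_of_coprime (by rw [hPc]; exact (hNp.pow_right k).symm)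
    have hsup : (P : Subgroup G) ⊔ N = ⊤ := by
      refine Subgroup.eq_top_of_card_eq _ (Nat.dvd_antisymm (Subgroup.card_subgroup_dvd_card _) ?_)
      rw [← N.card_mul_index, hk, ← hPc]
      exact (by rw [hPc]; exact hNp.pow_right k :
        (Nat.card N).Coprime (Nat.card (P : Subgroup G))).mul_dvd_of_dvd_of_dvd
        (Subgroup.card_dvd_of_le le_sup_right) (Subgroup.card_dvd_of_le le_sup_left)
    have hPn : (P : Subgroup G).Normal := by
      refine Subgroup.normalizer_eq_top_iff.1 (top_le_iff.1 (hsup ▸ sup_le Subgroup.le_normalizer ?_))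
      intro a ha
      rw [Subgroup.mem_normalizer_iff]
      intro g
      rw [show a * g * a⁻¹ = g by rw [← hcomm a ha g, mul_inv_cancel_right]]
    exact ⟨P, N, hPn, hN, P.2, hab, hcomm, hdisj, hsup⟩
  · left
    have hprime : ∀ p : ℕ, p.Prime → p ∣ m → ∀ N : Subgroup G, N.Normal →
        (∃ k : ℕ, N.index = p ^ k) → commutator G ≤ N := by
      intro p hp hpm N hN ⟨k, hk⟩
      haveI := hN
      haveI : Fact p.Prime := ⟨hp⟩
      have hlin : ∀ β : IrrCharacter (G ⧸ N), (β : G ⧸ N → ℂ) 1 = 1 := by
        intro β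
        rw [← charDegree_eq_one_iff]
        refine ((h.quotient N) β).resolve_right fun he => hpp ?_
        have hd := charDegree_dvd_card β
        rw [he, ← Subgroup.index_eq_card, hk] at hd
        obtain ⟨e, -, he'⟩ := (Nat.dvd_prime_pow hp).1 hd
        exact ⟨p, e, hp, he'⟩
      intro x hx
      have h1 : QuotientGroup.mk' N x ∈ (commutator G).map (QuotientGroup.mk' N) :=
        Subgroup.mem_map_of_mem _ hx
      rw [commutator_def, Subgroup.map_commutator,
        Subgroup.map_top_of_surjective _ (QuotientGroup.mk'_surjective N), ← commutator_def,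
        commutator_eq_bot_iff.2 hlin, Subgroup.mem_bot] at h1
      exact (QuotientGroup.eq_one_iff x).1 h1
    have hinter : ∀ s : Finset ℕ, (∀ p ∈ s, p.Prime ∧ p ∣ m) → ∃ M : Subgroup G, M.Normal ∧
        commutator G ≤ M ∧ (∀ p ∈ s, (Nat.card M).Coprime p) ∧
        (∀ q : ℕ, q.Prime → q ∣ M.index → q ∈ s) := by
      intro s
      induction s using Finset.induction with
      | empty =>
        intro _
        exact ⟨⊤, inferInstance, le_top, fun p hp => absurd hp (Finset.notMem_empty p),
          fun q hq hd => absurd (Subgroup.index_top (G := G) ▸ hd) hq.not_dvd_one⟩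
      | insert p s _ ih =>
        intro hs
        obtain ⟨M, hM, hMc, hMp, hMi⟩ := ih fun q hq => hs q (Finset.mem_insert_of_mem hq)
        obtain ⟨hp, hpm⟩ := hs p (Finset.mem_insert_self p s)
        obtain ⟨N, hN, hNp, k, hk⟩ := hcompl p hp hpm
        haveI := hM
        haveI := hN
        refine ⟨M ⊓ N, inferInstance, le_inf hMc (hprime p hp hpm N hN ⟨k, hk⟩), fun q hq => ?_,
          fun q hq hd => ?_⟩
        · rcases Finset.mem_insert.1 hq with rfl | hq
          · exact hNp.coprime_dvd_left (Subgroup.card_dvd_of_le inf_le_right)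
          · exact (hMp q hq).coprime_dvd_left (Subgroup.card_dvd_of_le inf_le_left)
        · rw [← Subgroup.relIndex_mul_index (inf_le_left : M ⊓ N ≤ M)] at hd
          rcases (Nat.Prime.dvd_mul hq).1 hd with hd | hd
          · rw [inf_comm, Subgroup.inf_relIndex_right] at hd
            have := hk ▸ hd.trans (Subgroup.relIndex_dvd_index_of_normal N M)
            exact Finset.mem_insert.2 (Or.inl ((Nat.prime_dvd_prime_iff_eq hq hp).1 (hq.dvd_of_dvd_pow this)))
          · exact Finset.mem_insert_of_mem (hMi q hq hd)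
    obtain ⟨M, hM, hMc, hMp, hMi⟩ := hinter m.primeFactors fun p hp =>
      ⟨Nat.prime_of_mem_primeFactors hp, Nat.dvd_of_mem_primeFactors hp⟩
    haveI := hM
    have hMm : (Nat.card M).Coprime m := Nat.coprime_of_dvd fun q hq h1 h2 =>
      hq.ne_one (Nat.eq_one_of_dvd_coprimes (hMp q (Nat.mem_primeFactors.2 ⟨hq, h2, hm0⟩)) h1 dvd_rfl)
    have hcop : Nat.Coprime (Nat.card M) M.index := Nat.coprime_of_dvd fun q hq h1 h2 =>
      hq.ne_one (Nat.eq_one_of_dvd_coprimes (hMp q (hMi q hq h2)) h1 dvd_rfl)
    refine exists_abelian_of_coprime h (comm_of_coprime h M hMm) hcop fun hc => ?_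
    refine exists_not_comm hm hm1 ((Subgroup.commutator_eq_bot_iff_le_centralizer).2 ?_)
    intro x _
    rw [Subgroup.mem_centralizer_iff]
    intro y _
    refine comm_of_coprime_index M (fun a ha g => Subgroup.mem_center_iff.1 (hc ha) g) hcop (hMc ?_)
    rw [commutator_def]
    exact Subgroup.commutator_mem_commutator (Subgroup.mem_top _) (Subgroup.mem_top _)

/-- In a monomial group with two degrees the second derived subgroup is trivial. -/
theorem derived_two_of_monomial [Fintype G] (h : Degrees G m)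
    (hM : ∀ χ : IrrCharacter G, IsMonomialFun (χ : G → ℂ)) :
    ∀ a ∈ commutator G, ∀ b ∈ commutator G, a * b = b * a := by
  classical
  have hle : ⁅commutator G, commutator G⁆ ≤ ⊥ := by
    rw [← iInf_charKer_eq_bot (G := G)]
    refine le_iInf fun χ => ?_
    rcases h χ with h1 | h1
    · refine le_trans ?_ ((commutator_le_charKer_iff χ).2 ((charDegree_eq_one_iff χ).1 h1))
      exact Subgroup.commutator_mono le_top le_top
    obtain ⟨H, lam, hlam⟩ := hM χ
    have hidx : H.index = m := by
      have h2 := congrFun hlam 1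
      rw [indFun_one_apply, map_one, Units.val_one, mul_one, ← coe_charDegree, h1] at h2
      exact_mod_cast h2.symm
    have hGH := commutator_le_of_index_le h H hidx.le
    have hn : (⁅commutator G, commutator G⁆).Normal := inferInstance
    intro z hz
    rw [mem_charKer_iff (isCharacter_coe χ), hlam]
    simp only [indFun]
    congr 1
    refine Finset.sum_congr rfl fun y _ => ?_
    have hker : ⁅commutator G, commutator G⁆ ≤ lam.ker.map H.subtype := by
      rw [Subgroup.commutator_le]
      intro a ha b hb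
      refine ⟨⁅(⟨a, hGH ha⟩ : H), ⟨b, hGH hb⟩⁆, ?_, map_commutatorElement H.subtype _ _⟩
      exact Abelianization.commutator_subset_ker lam (by
        rw [commutator_def]
        exact Subgroup.commutator_mem_commutator (Subgroup.mem_top _) (Subgroup.mem_top _))
    obtain ⟨w, hw, hw'⟩ := hker (show y⁻¹ * z * y ∈ _ by simpa using hn.conj_mem z hz y⁻¹)
    rw [show y⁻¹ * z * y = ((w : H) : G) from hw'.symm, extendByZero_coe, mul_one, inv_mul_cancel,
      show (1 : G) = ((1 : H) : G) from rfl, extendByZero_coe, map_one, MonoidHom.mem_ker.1 hw]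
  intro a ha b hb
  exact commutatorElement_eq_one_iff_mul_comm.1
    (Subgroup.mem_bot.1 (hle (Subgroup.commutator_mem_commutator ha hb)))

/-- Two degrees: the derived subgroup is abelian. -/
theorem derived_abelian (h : Degrees G m) (hm : ∃ χ : IrrCharacter G, charDegree (χ : G → ℂ) = m)
    (hm1 : m ≠ 1) : ∀ a ∈ commutator G, ∀ b ∈ commutator G, a * b = b * a := by
  classical
  haveI := Fintype.ofFinite G
  rcases structure_thm h hm hm1 with ⟨A, hA, hab, hidx⟩ | ⟨p, e, hp, -, P, A, -, hA, hP, -, hcent, -, hsup⟩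
  · haveI := hA
    have hle := commutator_le_of_index_le h A hidx.le
    exact fun a ha b hb => hab a (hle ha) b (hle hb)
  · haveI : Fact p.Prime := ⟨hp⟩
    haveI := hA
    have hAc : A ≤ Subgroup.center G := fun a ha => Subgroup.mem_center_iff.2 (hcent a ha)
    have hpq : IsPGroup p (G ⧸ Subgroup.center G) := by
      refine IsPGroup.of_surjective hP ((QuotientGroup.mk' (Subgroup.center G)).comp P.subtype) fun q => ?_
      obtain ⟨g, rfl⟩ := QuotientGroup.mk'_surjective _ q
      have hg : g ∈ ((P : Subgroup G) : Set G) * (A : Set G) := by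
        rw [← Subgroup.mul_normal, hsup]; trivial
      obtain ⟨s, hs, a, ha, rfl⟩ := hg
      exact ⟨⟨s, hs⟩, by
        show QuotientGroup.mk' (Subgroup.center G) s = QuotientGroup.mk' (Subgroup.center G) (s * a)
        rw [map_mul, (QuotientGroup.eq_one_iff a).2 (hAc ha) |> fun e => (show QuotientGroup.mk' (Subgroup.center G) a = 1 from e), mul_one]⟩
    haveI := hpq.isNilpotent
    have hnil : Group.IsNilpotent G := Group.of_quotient_center_nilpotent (G := G) inferInstance
    exact derived_two_of_monomial h (isMonomialFun_of_isNilpotent _ G hnil rfl)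

end CfsgLib.TwoDegrees
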