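import Cfsg.Agent.Chars.TwoDegrees.PrimeOrbits
import Cfsg.Agent.Chars.TwoDegrees.Main
import Cfsg.Agent.Chars.Induced.CentreIndex

/-!
# Two degrees `1` and a prime `p`
-/

set_option autoImplicit false

namespace CfsgLib.TwoDegrees

open Cfsg CfsgLib.Chars CfsgLib.Chars.Induced
open scoped commutatorElement Pointwise

universe u

variable {G : Type u} [Group G] [Finite G] {p : ℕ} [Fact p.Prime]

/-- Degrees give the orbit hypotheses. -/
theorem orbit_facts (h : Degrees G p) (A : Subgroup G) [A.Normal]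
    (hab : ∀ a ∈ A, ∀ b ∈ A, a * b = b * a) (μ : A →* ℂˣ) (hμ : stab A μ ≠ ⊤) :
    (stab A μ).index = p ∧ ∀ x ∈ stab A μ, ∀ y ∈ stab A μ, ∀ hxy : ⁅x, y⁆ ∈ A,
      μ ⟨⁅x, y⁆, hxy⟩ = 1 := by
  classical
  have hp : p.Prime := Fact.out
  haveI := Fintype.ofFinite G
  haveI := Fintype.ofFinite A
  set T := stab A μ with hTdef
  haveI := Fintype.ofFinite T
  have hT : T = inertia A (linChar μ : A → ℂ) := stab_eq_inertia A μ
  have hAT : A ≤ T := le_stab A hab μ
  obtain ⟨χ, hχ⟩ := exists_mult_ne_zero (isCharacter_indFun A (isCharacter_coe (linChar μ))) fun h0 => by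
    have h1 := congrFun h0 1
    rw [indFun_one_apply, Pi.zero_apply] at h1
    rcases mul_eq_zero.1 h1 with h2 | h2
    · exact Subgroup.index_ne_zero_of_finite (Nat.cast_eq_zero.1 h2)
    · exact map_one_ne_zero (linChar μ) h2
  have hmult : mult (fun n : A => (χ : G → ℂ) n) (linChar μ) ≠ 0 := by rwa [← mult_indFun_irr]
  have hd : charDegree (χ : G → ℂ) = mult (fun n : A => (χ : G → ℂ) n) (linChar μ) * T.index := by
    apply Nat.cast_injective (R := ℂ)
    rw [coe_charDegree, clifford_one χ (linChar μ) hmult, linChar_map_one, mul_one, ← hT, Nat.cast_mul]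
  have h1 : T.index ≠ 1 := fun h1 => hμ (Subgroup.index_eq_one.1 h1)
  have hidx : T.index = p := by
    rcases h χ with he | he
    · exact absurd (Nat.eq_one_of_mul_eq_one_left (hd ▸ he)) h1
    · exact ((Nat.dvd_prime hp).1 ⟨_, (hd ▸ he).symm.trans (mul_comm _ _)⟩).resolve_left h1
  refine ⟨hidx, fun x hx y hy hxy => ?_⟩
  obtain ⟨ψ, hψ, hψχ⟩ := exists_indFun_eq hT hAT χ hmult
  have hψ1 : charDegree (ψ : T → ℂ) = 1 := by
    have h2 : charDegree (χ : G → ℂ) = T.index * charDegree (ψ : T → ℂ) :=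
      charDegree_eq_of_map_one (by rw [← hψχ, indFun_one_apply, Nat.cast_mul, coe_charDegree])
    rcases h χ with he | he
    · exact absurd (Nat.eq_one_of_mul_eq_one_right (h2 ▸ he)) h1
    · rw [h2, hidx] at he
      exact Nat.eq_of_mul_eq_mul_left hp.pos (he.trans (mul_one p).symm)
  obtain ⟨δ, hδ⟩ := exists_linChar_eq ψ ((charDegree_eq_one_iff ψ).1 hψ1)
  have hres := restrict_eq_smul_of_le_inertia hAT hT.le ψ hψ
  set f := mult (fun n : A => (ψ : T → ℂ) (Subgroup.inclusion hAT n)) (linChar μ) with hf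
  have hf1 : (f : ℂ) = 1 := by
    have h3 := congrFun hres 1
    simp only [map_one, Pi.smul_apply, smul_eq_mul, ← hf, linChar_map_one, mul_one] at h3
    rw [← h3, ← coe_charDegree, hψ1, Nat.cast_one]
  have hres' : ∀ a : A, (δ (Subgroup.inclusion hAT a) : ℂ) = μ a := fun a => by
    have h3 := congrFun hres a
    simp only [Pi.smul_apply, smul_eq_mul, ← hf, hf1, one_mul, linChar_apply, ← hδ] at h3
    exact h3
  refine Units.ext ?_
  rw [← hres', show Subgroup.inclusion hAT ⟨⁅x, y⁆, hxy⟩ = ⁅(⟨x, hx⟩ : T), ⟨y, hy⟩⁆ from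
    Subtype.ext (map_commutatorElement T.subtype ⟨x, hx⟩ ⟨y, hy⟩).symm, map_commutatorElement,
    commutatorElement_eq_one_iff_mul_comm.2 (mul_comm _ _)]

omit [Finite G] [Fact p.Prime] in
theorem comm_mul_left {x y z : G} (h : ∀ g : G, g * ⁅y, z⁆ = ⁅y, z⁆ * g) :
    ⁅x * y, z⁆ = ⁅x, z⁆ * ⁅y, z⁆ := by
  calc ⁅x * y, z⁆ = x * ⁅y, z⁆ * x⁻¹ * ⁅x, z⁆ := by simp only [commutatorElement_def]; group
    _ = _ := by rw [h x, mul_inv_cancel_right, ← h]

omit [Finite G] [Fact p.Prime] in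
theorem comm_mul_right {x y z : G} (h : ∀ g : G, g * ⁅x, z⁆ = ⁅x, z⁆ * g) :
    ⁅x, y * z⁆ = ⁅x, y⁆ * ⁅x, z⁆ := by
  calc ⁅x, y * z⁆ = ⁅x, y⁆ * (y * ⁅x, z⁆) * y⁻¹ := by simp only [commutatorElement_def]; group
    _ = _ := by rw [h y, mul_assoc, mul_inv_cancel_right]

theorem index_cases {A : Subgroup G} [A.Normal] (O : Orbits A p)
    (hG : ∃ a b : G, a * b ≠ b * a) :
    (∃ B : Subgroup G, B.Normal ∧ (∀ a ∈ B, ∀ b ∈ B, a * b = b * a) ∧ B.index = p) ∨
      (Subgroup.center G).index = p ^ 3 := by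
  classical
  have hp : p.Prime := Fact.out
  have hcent : ∀ g : G, (∀ l : A →* ℂˣ, act A g l = l) → g ∈ A := by
    intro g hg
    refine O.self_cent g fun a ha => ?_
    by_contra hne
    have hw : MulAut.conjNormal g⁻¹ (⟨a, ha⟩ : A) * (⟨a, ha⟩ : A)⁻¹ ∉ (⊥ : Subgroup A) := by
      rw [Subgroup.mem_bot, mul_inv_eq_one]
      intro e
      apply hne
      have h2 : g⁻¹ * a * g = a := by simpa using congrArg Subtype.val e
      calc g * a = g * (g⁻¹ * a * g) := by rw [h2]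
        _ = a * g := by group
    obtain ⟨μ, -, hμ⟩ := exists_linear_sep O.ab ⊥ hw
    apply hμ
    rw [map_mul, map_inv μ, mul_inv_eq_one]
    exact DFunLike.congr_fun (hg μ) _
  have hAtop : A ≠ ⊤ := fun e => by
    obtain ⟨a, b, hab⟩ := hG
    exact hab (O.ab a (e ▸ Subgroup.mem_top a) b (e ▸ Subgroup.mem_top b))
  rcases O.dichotomy with hall | ⟨c, hc1, hcp, hfix, hmove⟩
  · left
    obtain ⟨g, hg⟩ : ∃ g, g ∉ A := by
      by_contra! hh; exact hAtop (eq_top_iff.2 fun z _ => hh z)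
    obtain ⟨l, hl⟩ : ∃ l : A →* ℂˣ, stab A l ≠ ⊤ := by
      by_contra! hh
      exact hg (hcent g fun l => (mem_stab A).1 (hh l ▸ Subgroup.mem_top g))
    have hSA : stab A l = A := le_antisymm (fun s hs => hcent s fun μ => by
      by_cases hμ : stab A μ = ⊤
      · exact (mem_stab A).1 (hμ ▸ Subgroup.mem_top s)
      · exact (mem_stab A).1 (hall l μ hl hμ ▸ hs)) (le_stab A O.ab l)
    exact ⟨A, inferInstance, O.ab, hSA ▸ O.index_eq l hl⟩
  -- the centre
  set K := c.ker.map A.subtype with hKdef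
  have hKA : K ≤ A := Subgroup.map_subtype_le _
  have hmemK : ∀ {w : G} (hw : w ∈ A), c ⟨w, hw⟩ = 1 → w ∈ K := fun {w} hw h => ⟨⟨w, hw⟩, h, rfl⟩
  have hKZ : K ≤ Subgroup.center G := by
    rintro _ ⟨w, hw, rfl⟩
    refine Subgroup.mem_center_iff.2 fun g => ?_
    by_contra hne
    have hne' : MulAut.conjNormal g⁻¹ w * w⁻¹ ∉ (⊥ : Subgroup A) := by
      rw [Subgroup.mem_bot, mul_inv_eq_one]
      intro e
      apply hne
      have h2 : g⁻¹ * (w : G) * g = w := by simpa using congrArg Subtype.val e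
      calc g * A.subtype w = g * (g⁻¹ * (w : G) * g) := by rw [h2]; rfl
        _ = A.subtype w * g := by rw [Subgroup.coe_subtype]; group
    obtain ⟨μ, -, hμ⟩ := exists_linear_sep O.ab ⊥ hne'
    apply hμ
    obtain ⟨i, hi⟩ := hmove μ g
    have h1 := DFunLike.congr_fun hi w
    rw [act_apply, MonoidHom.mul_apply, MonoidHom.pow_apply, MonoidHom.mem_ker.1 hw, one_pow, mul_one] at h1
    rw [map_mul, map_inv μ, h1, mul_inv_cancel]
  obtain ⟨a, ha, hca⟩ : ∃ a, ∃ ha : a ∈ A, c ⟨a, ha⟩ ≠ 1 := by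
    by_contra! hh
    exact hc1 (MonoidHom.ext fun w => hh w.1 w.2)
  have hZA : Subgroup.center G ≤ A := fun z hz =>
    O.self_cent z fun b _ => ((Subgroup.mem_center_iff.1 hz) b).symm
  have hfixa : ∀ (g : G) (w : A), c (MulAut.conjNormal g w) = c w := fun g w => by
    have := DFunLike.congr_fun (hfix g⁻¹) w
    rwa [act_apply, inv_inv] at this
  have haZ : a ∉ Subgroup.center G := fun haZ => by
    have hAZ : A ≤ Subgroup.center G := by
      have hgen : ∀ w : A, ∃ j : ℕ, c w = c ⟨a, ha⟩ ^ j := fun w => by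
        have h1 : c ⟨a, ha⟩ ^ p = 1 := by rw [← MonoidHom.pow_apply, hcp, MonoidHom.one_apply]
        have h2 : (c w : ℂ) ^ p = 1 := by
          rw [← Units.val_pow_eq_pow_val, ← MonoidHom.pow_apply, hcp, MonoidHom.one_apply, Units.val_one]
        have hprim : IsPrimitiveRoot ((c ⟨a, ha⟩ : ℂˣ) : ℂ) p := by
          rw [← orderOf_eq_prime h1 hca, ← orderOf_units]
          exact IsPrimitiveRoot.orderOf _
        haveI : NeZero p := ⟨hp.ne_zero⟩
        obtain ⟨j, -, hj⟩ := hprim.eq_pow_of_pow_eq_one h2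
        exact ⟨j, Units.ext (by rw [Units.val_pow_eq_pow_val, hj])⟩
      intro w hw
      obtain ⟨j, hj⟩ := hgen ⟨w, hw⟩
      have hk : w * (a ^ j)⁻¹ ∈ K := hmemK (mul_mem hw (inv_mem (pow_mem ha j))) (by
        rw [show (⟨w * (a ^ j)⁻¹, _⟩ : A) = ⟨w, hw⟩ * ((⟨a, ha⟩ : A) ^ j)⁻¹ from Subtype.ext rfl,
          map_mul, map_inv, map_pow, hj, mul_inv_cancel])
      have := mul_mem (hKZ hk) (pow_mem haZ j)
      rwa [inv_mul_cancel_right] at this
    exact hAtop (eq_top_iff.2 fun g _ => O.self_cent g fun b hb =>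
      Subgroup.mem_center_iff.1 (hAZ hb) g)
  have hAgen : ∀ w ∈ A, ∃ j : ℕ, w * (a ^ j)⁻¹ ∈ K := by
    intro w hw
    have h1 : c ⟨a, ha⟩ ^ p = 1 := by rw [← MonoidHom.pow_apply, hcp, MonoidHom.one_apply]
    have h2 : (c ⟨w, hw⟩ : ℂ) ^ p = 1 := by
      rw [← Units.val_pow_eq_pow_val, ← MonoidHom.pow_apply, hcp, MonoidHom.one_apply, Units.val_one]
    have hprim : IsPrimitiveRoot ((c ⟨a, ha⟩ : ℂˣ) : ℂ) p := by
      rw [← orderOf_eq_prime h1 hca, ← orderOf_units]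
      exact IsPrimitiveRoot.orderOf _
    haveI : NeZero p := ⟨hp.ne_zero⟩
    obtain ⟨j, -, hj⟩ := hprim.eq_pow_of_pow_eq_one h2
    refine ⟨j, hmemK (mul_mem hw (inv_mem (pow_mem ha j))) ?_⟩
    rw [show (⟨w * (a ^ j)⁻¹, _⟩ : A) = ⟨w, hw⟩ * ((⟨a, ha⟩ : A) ^ j)⁻¹ from Subtype.ext rfl,
      map_mul, map_inv, map_pow, mul_inv_eq_one]
    exact Units.ext (by rw [Units.val_pow_eq_pow_val, hj])
  have hap : a ^ p ∈ Subgroup.center G := hKZ (hmemK (pow_mem ha p) (by
    rw [show (⟨a ^ p, pow_mem ha p⟩ : A) = ⟨a, ha⟩ ^ p from Subtype.ext rfl, map_pow,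
      ← MonoidHom.pow_apply, hcp, MonoidHom.one_apply]))
  have hphiZ : ∀ g : G, ⁅g, a⁆ ∈ Subgroup.center G := fun g => by
    refine hKZ (hmemK (O.comm_mem g a) ?_)
    rw [show (⟨⁅g, a⁆, O.comm_mem g a⟩ : A) = MulAut.conjNormal g ⟨a, ha⟩ * (⟨a, ha⟩ : A)⁻¹ from
      Subtype.ext (by simp [commutatorElement_def]), map_mul, map_inv, hfixa, mul_inv_cancel]
  have hcC : ∀ {z : G}, z ∈ Subgroup.center G → ∀ g : G, g * z = z * g := fun {z} hz =>
    Subgroup.mem_center_iff.1 hz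
  let φ : G →* G :=
    { toFun := fun g => ⁅g, a⁆
      map_one' := commutatorElement_one_left a
      map_mul' := fun x y => comm_mul_left (hcC (hphiZ y)) }
  have hφap : ∀ (g : G) (i : ℕ), ⁅a ^ i, g⁆ = (φ g ^ i)⁻¹ := by
    intro g i
    have hz : ∀ z : G, z * ⁅a, g⁆ = ⁅a, g⁆ * z :=
      hcC (by rw [← commutatorElement_inv]; exact inv_mem (hphiZ g))
    rw [commutatorElement_pow_left hz, ← inv_pow]
    congr 1
    exact (commutatorElement_inv g a).symm
  have hφp : ∀ g, φ g ^ p = 1 := fun g => by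
    rw [← inv_eq_one, ← hφap, commutatorElement_eq_one_iff_mul_comm]
    exact (hcC hap g).symm
  have hφker : φ.ker = A := by
    ext g
    rw [MonoidHom.mem_ker]
    constructor
    · intro hg
      refine O.self_cent g fun w hw => ?_
      obtain ⟨j, hj⟩ := hAgen w hw
      have hga : Commute g a := commutatorElement_eq_one_iff_mul_comm.1 hg
      have : w = (w * (a ^ j)⁻¹) * a ^ j := (inv_mul_cancel_right _ _).symm
      rw [this]
      exact ((show Commute g (w * (a ^ j)⁻¹) from hcC (hKZ hj) g).mul_right (hga.pow_right j)).eq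
    · intro hg
      exact commutatorElement_eq_one_iff_mul_comm.2 (O.ab g hg a ha)
  set E := φ.range with hE
  have hEc : Nat.card E = A.index := by rw [← hφker, Subgroup.index_ker]
  -- the index of the centre
  have hZidx : (Subgroup.center G).index = p * A.index := by
    rw [← Subgroup.relIndex_mul_index hZA]
    congr 1
    set Z' := (Subgroup.center G).subgroupOf A
    show Z'.index = p
    haveI : Z'.Normal := inferInstance
    have hz : QuotientGroup.mk' Z' ⟨a, ha⟩ ≠ 1 := fun e =>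
      haZ ((QuotientGroup.eq_one_iff (N := Z') (⟨a, ha⟩ : A)).1 e : _)
    rw [Subgroup.index_eq_card, Nat.card_eq_of_bijective (α := Subgroup.zpowers (QuotientGroup.mk' Z' (⟨a, ha⟩ : A)))
      Subtype.val ⟨Subtype.val_injective, fun q => ⟨⟨q, ?_⟩, rfl⟩⟩ |>.symm]
    · rw [Nat.card_zpowers]
      refine orderOf_eq_prime ?_ hz
      rw [← map_pow, QuotientGroup.mk'_apply, QuotientGroup.eq_one_iff]
      exact hap
    · obtain ⟨w, rfl⟩ := QuotientGroup.mk'_surjective Z' q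
      obtain ⟨j, hj⟩ := hAgen w.1 w.2
      refine ⟨(j : ℤ), ?_⟩
      show (QuotientGroup.mk' Z' (⟨a, ha⟩ : A)) ^ (j : ℤ) = _
      rw [zpow_natCast, ← map_pow]
      symm
      rw [← mul_inv_eq_one, ← map_inv, ← map_mul, QuotientGroup.mk'_apply, QuotientGroup.eq_one_iff]
      exact hKZ hj
  have hEpow : ∀ e ∈ E, e ^ p = 1 := by rintro _ ⟨g, rfl⟩; exact hφp g
  haveI hEp : IsPGroup p E := fun e => ⟨1, Subtype.ext (by simpa using hEpow e.1 e.2)⟩
  obtain ⟨k, hk⟩ := IsPGroup.iff_card.1 hEp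
  rcases Nat.lt_or_ge k 3 with hk3 | hk3
  · interval_cases k
    · exact absurd (Subgroup.index_eq_one.1 (hEc ▸ hk.trans (pow_zero p))) hAtop
    · exact Or.inl ⟨A, inferInstance, O.ab, hEc ▸ hk.trans (pow_one p)⟩
    · exact Or.inr (by rw [hZidx, ← hEc, hk, pow_succ' p 2])
  left
  have hEZ : E ≤ Subgroup.center G := by rintro _ ⟨g, rfl⟩; exact hphiZ g
  -- commutators lie in the span of the two images
  have hsum : ∀ (u v : G) {z : G}, z ∈ Subgroup.zpowers (φ u) ⊔ Subgroup.zpowers (φ v) →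
      ∃ q ∈ Subgroup.zpowers (φ u), ∃ r ∈ Subgroup.zpowers (φ v), q * r = z := by
    intro u v z hz
    haveI : (Subgroup.zpowers (φ v)).Normal := ⟨fun w hw g => by
      rw [hcC (Subgroup.zpowers_le.2 (hphiZ v) hw) g, mul_inv_cancel_right]; exact hw⟩
    rw [← SetLike.mem_coe, Subgroup.mul_normal] at hz
    obtain ⟨q, hq, r, hr, e⟩ := hz
    exact ⟨q, hq, r, hr, e⟩
  have hDcard : ∀ u v : G, ¬ E ≤ Subgroup.zpowers (φ u) ⊔ Subgroup.zpowers (φ v) := by
    intro u v hle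
    have hle' := Subgroup.card_le_of_le hle
    have hb : ∀ g : G, Nat.card (Subgroup.zpowers (φ g)) ≤ p := fun g => by
      rw [Nat.card_zpowers]
      exact Nat.le_of_dvd hp.pos (orderOf_dvd_of_pow_eq_one (hφp g))
    have hs : Nat.card ↥(Subgroup.zpowers (φ u) ⊔ Subgroup.zpowers (φ v)) ≤
        Nat.card (Subgroup.zpowers (φ u) × Subgroup.zpowers (φ v)) :=
      Nat.card_le_card_of_surjective
        (fun z => ⟨(z.1 : G) * z.2, mul_mem (Subgroup.mem_sup_left z.1.2) (Subgroup.mem_sup_right z.2.2)⟩)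
        fun z => by
          obtain ⟨q, hq, r, hr, e⟩ := hsum u v z.2
          exact ⟨(⟨q, hq⟩, ⟨r, hr⟩), Subtype.ext e⟩
    rw [Nat.card_prod] at hs
    have h3 := ((Nat.pow_le_pow_right hp.pos hk3).trans (hk ▸ hle')).trans
      (hs.trans (Nat.mul_le_mul (hb u) (hb v)))
    nlinarith [hp.two_le, Nat.mul_le_mul hp.two_le hp.two_le]
  have hspan : ∀ x y : G, ⁅x, y⁆ ∈ Subgroup.zpowers (φ x) ⊔ Subgroup.zpowers (φ y) := by
    intro x y
    set D := Subgroup.zpowers (φ x) ⊔ Subgroup.zpowers (φ y)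
    have hDA : D ≤ A := sup_le (Subgroup.zpowers_le.2 (hZA (hphiZ x))) (Subgroup.zpowers_le.2 (hZA (hphiZ y)))
    by_contra hnot
    have hw : (⟨⁅x, y⁆, O.comm_mem x y⟩ : A) ∉ D.subgroupOf A := hnot
    obtain ⟨ν, hν, hνw⟩ := exists_linear_sep O.ab _ hw
    obtain ⟨e, heE, heD⟩ := SetLike.not_le_iff_exists.1 (hDcard x y)
    have hstab : ∀ μ : A →* ℂˣ, (∀ d : A, d ∈ D.subgroupOf A → μ d = 1) → x ∈ stab A μ ∧ y ∈ stab A μ := by
      intro μ hμ
      suffices h : ∀ g : G, φ g ∈ D → g⁻¹ ∈ stab A μ from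
        ⟨inv_mem_iff.1 (h x (Subgroup.mem_sup_left (Subgroup.mem_zpowers _))),
          inv_mem_iff.1 (h y (Subgroup.mem_sup_right (Subgroup.mem_zpowers _)))⟩
      intro g hg
      refine MonoidHom.ext fun w => ?_
      rw [act_apply, inv_inv]
      have h1 : ((MulAut.conjNormal g w * w⁻¹ : A) : G) ∈ D := by
        obtain ⟨j, hj⟩ := hAgen w.1 w.2
        have e : ((MulAut.conjNormal g w * w⁻¹ : A) : G) = φ g ^ j := by
          simp only [Subgroup.coe_mul, MulAut.conjNormal_apply, Subgroup.coe_inv]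
          have hw : (w : G) = ((w : G) * (a ^ j)⁻¹) * a ^ j := (inv_mul_cancel_right _ _).symm
          calc g * (w : G) * g⁻¹ * (w : G)⁻¹ = g * ((w : G) * (a ^ j)⁻¹) * (a ^ j * g⁻¹ * (a ^ j)⁻¹) * ((w : G) * (a ^ j)⁻¹)⁻¹ := by group
            _ = g * (a ^ j * g⁻¹ * (a ^ j)⁻¹) := by
              rw [mul_assoc g, ← hcC (hKZ hj) (a ^ j * g⁻¹ * (a ^ j)⁻¹), ← mul_assoc g, mul_inv_cancel_right]
            _ = (⁅a ^ j, g⁆)⁻¹ := by simp only [commutatorElement_def]; group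
            _ = φ g ^ j := by rw [hφap, inv_inv]
        rw [e]; exact pow_mem hg j
      have h2 := hμ (MulAut.conjNormal g w * w⁻¹) h1
      rwa [map_mul, map_inv, mul_inv_eq_one] at h2
    have hmoved : ∀ μ : A →* ℂˣ, μ ⟨e, hZA (hEZ heE)⟩ ≠ 1 → stab A μ ≠ ⊤ := by
      intro μ hμ htop
      apply hμ
      obtain ⟨g, hg⟩ := heE
      have h1 := DFunLike.congr_fun ((mem_stab A).1 (htop ▸ Subgroup.mem_top g⁻¹ : g⁻¹ ∈ stab A μ)) ⟨a, ha⟩
      rw [act_apply, inv_inv] at h1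
      rw [show (⟨e, hZA (hEZ ⟨g, hg⟩)⟩ : A) = MulAut.conjNormal g ⟨a, ha⟩ * (⟨a, ha⟩ : A)⁻¹ from
        Subtype.ext (hg.symm.trans (by simp [φ, commutatorElement_def])), map_mul, map_inv μ, h1, mul_inv_cancel]
    have hkill : ∀ μ : A →* ℂˣ, (∀ d : A, d ∈ D.subgroupOf A → μ d = 1) →
        μ ⟨e, hZA (hEZ heE)⟩ ≠ 1 → μ ⟨⁅x, y⁆, O.comm_mem x y⟩ = 1 := fun μ h1 h2 =>
      O.ext_one μ (hmoved μ h2) x (hstab μ h1).1 y (hstab μ h1).2
    obtain ⟨ω, hω, hωe⟩ := exists_linear_sep O.ab (D.subgroupOf A)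
      (w := ⟨e, hZA (hEZ heE)⟩) heD
    by_cases hνe : ν ⟨e, hZA (hEZ heE)⟩ = 1
    · have h3 := hkill (ν * ω) (fun d hd => by rw [MonoidHom.mul_apply, hν d hd, hω d hd, one_mul])
        (by rw [MonoidHom.mul_apply, hνe, one_mul]; exact hωe)
      rw [MonoidHom.mul_apply, hkill ω hω hωe, mul_one] at h3
      exact hνw h3
    · exact hνw (hkill ν hν hνe)
  have hcz : ∀ x y : G, ⁅x, y⁆ ∈ Subgroup.center G := fun x y =>
    sup_le (Subgroup.zpowers_le.2 (hphiZ x)) (Subgroup.zpowers_le.2 (hphiZ y)) (hspan x y)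
  -- powers in a cyclic subgroup of order `p`
  have hdiv : ∀ (w : G) (S : Subgroup G) (i : ℤ), w ^ p = 1 → w ^ i ∈ S → w ∈ S ∨ (p : ℤ) ∣ i := by
    intro w S i hw hi
    by_cases hd : (p : ℤ) ∣ i
    · exact Or.inr hd
    left
    have hg : Int.gcd i p = 1 := Int.isCoprime_iff_gcd_eq_one.1
      ((Nat.prime_iff_prime_int.1 hp).coprime_iff_not_dvd.2 hd).symm
    obtain ⟨r, s, hrs⟩ := Int.isCoprime_iff_gcd_eq_one.2 hg
    have : w = (w ^ i) ^ r := by
      rw [← zpow_mul]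
      conv_lhs => rw [← zpow_one w, ← hrs]
      rw [zpow_add, mul_comm r i, mul_comm s (p : ℤ), zpow_mul w (p : ℤ) s, zpow_natCast, hw, one_zpow, mul_one]
    rw [this]; exact zpow_mem hi r
  have hdvd1 : ∀ (g : G) (i : ℤ), (p : ℤ) ∣ i → φ g ^ i = 1 := by
    rintro g i ⟨t, rfl⟩
    rw [zpow_mul, zpow_natCast, hφp, one_zpow]
  -- good representatives
  set U := {u : G | ∀ y, ⁅u, y⁆ ∈ Subgroup.zpowers (φ u)} with hU
  have hrep : ∀ x : G, φ x ≠ 1 → ∃ i : ℕ, x * a ^ i ∈ U := by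
    intro x hx
    have hEx : ¬ E ≤ Subgroup.zpowers (φ x) := fun hh => by
      have := Subgroup.card_le_of_le hh
      rw [hk, Nat.card_zpowers, orderOf_eq_prime (hφp x) hx] at this
      have := (Nat.pow_le_pow_right hp.pos hk3).trans this
      nlinarith [hp.two_le, Nat.mul_le_mul hp.two_le hp.two_le]
    obtain ⟨_, ⟨y0, rfl⟩, hy0⟩ := SetLike.not_le_iff_exists.1 hEx
    -- coefficient at `y0`
    obtain ⟨α0, hα0, β0', ⟨β0, rfl⟩, hxy0⟩ := hsum x y0 (hspan x y0)
    have key : ∀ y, φ y ∉ Subgroup.zpowers (φ x) ⊔ Subgroup.zpowers (φ y0) →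
        ⁅x, y⁆ * (φ y ^ β0)⁻¹ ∈ Subgroup.zpowers (φ x) := by
      intro y hy
      obtain ⟨α1, hα1, _, ⟨β1, rfl⟩, hxy⟩ := hsum x y (hspan x y)
      obtain ⟨α2, hα2, _, ⟨β2, rfl⟩, hxyz⟩ := hsum x (y0 * y) (hspan x (y0 * y))
      simp only at hxyz hxy hxy0
      rw [comm_mul_right (hcC (hcz x y)), ← hxy0, ← hxy, map_mul,
        (show Commute (φ y0) (φ y) from hcC (hphiZ y) _).mul_zpow] at hxyz
      have hyZ := hcC (hphiZ y)
      -- compare exponents
      have h1 : φ y ^ (β1 - β2) ∈ Subgroup.zpowers (φ x) ⊔ Subgroup.zpowers (φ y0) := by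
        have : φ y ^ (β1 - β2) = α1⁻¹ * (φ y0 ^ β0)⁻¹ * α0⁻¹ * α2 * φ y0 ^ β2 := by
          rw [zpow_sub, show φ y ^ β1 = α1⁻¹ * (φ y0 ^ β0)⁻¹ * α0⁻¹ * (α2 * (φ y0 ^ β2 * φ y ^ β2)) by
            rw [hxyz]; group]
          group
        rw [this]
        exact mul_mem (mul_mem (mul_mem (mul_mem (Subgroup.mem_sup_left (inv_mem hα1))
          (Subgroup.mem_sup_right (inv_mem (zpow_mem (Subgroup.mem_zpowers _) _))))
          (Subgroup.mem_sup_left (inv_mem hα0))) (Subgroup.mem_sup_left hα2))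
          (Subgroup.mem_sup_right (zpow_mem (Subgroup.mem_zpowers _) _))
      have h12 : φ y ^ β1 = φ y ^ β2 := by
        have := hdvd1 y _ ((hdiv _ _ _ (hφp y) h1).resolve_left hy)
        rwa [zpow_sub, mul_inv_eq_one] at this
      rw [h12] at hxyz hxy
      have h2 : φ y0 ^ (β0 - β2) ∈ Subgroup.zpowers (φ x) := by
        have : φ y0 ^ (β0 - β2) = α0⁻¹ * α1⁻¹ * α2 := by
          have hc1 := hcC (hphiZ y0)
          have hα1c : α1 ∈ Subgroup.center G := Subgroup.zpowers_le.2 (hphiZ x) hα1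
          rw [zpow_sub]
          have e2 : φ y0 ^ β0 * α1 = α0⁻¹ * α2 * φ y0 ^ β2 := by
            calc φ y0 ^ β0 * α1 = α0⁻¹ * (α0 * φ y0 ^ β0 * (α1 * φ y ^ β2)) * (φ y ^ β2)⁻¹ := by group
              _ = _ := by rw [← hxyz]; group
          calc φ y0 ^ β0 * (φ y0 ^ β2)⁻¹ = (φ y0 ^ β0 * α1) * α1⁻¹ * (φ y0 ^ β2)⁻¹ := by group
            _ = α0⁻¹ * α2 * (φ y0 ^ β2 * α1⁻¹) * (φ y0 ^ β2)⁻¹ := by rw [e2]; group
            _ = α0⁻¹ * α2 * α1⁻¹ := by rw [hcC (inv_mem hα1c) (φ y0 ^ β2)]; group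
            _ = _ := by rw [mul_assoc, hcC (inv_mem hα1c) α2, ← mul_assoc]
        rw [this]
        exact mul_mem (mul_mem (inv_mem hα0) (inv_mem hα1)) hα2
      have h02 : φ y ^ β0 = φ y ^ β2 := by
        have := hdvd1 y _ ((hdiv _ _ _ (hφp y0) h2).resolve_left hy0)
        rwa [zpow_sub, mul_inv_eq_one] at this
      rw [h02, ← hxy, mul_inv_cancel_right]
      exact hα1
    obtain ⟨i, hi⟩ : ∃ i : ℕ, ∀ g : G, φ g ^ β0 = φ g ^ i := by
      refine ⟨(β0 % p).toNat, fun g => ?_⟩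
      rw [← zpow_natCast, Int.toNat_of_nonneg (Int.emod_nonneg _ (Int.natCast_ne_zero.2 hp.ne_zero))]
      conv_lhs => rw [← Int.emod_add_mul_ediv β0 p, zpow_add, hdvd1 g _ (dvd_mul_right _ _), mul_one]
    refine ⟨i, ?_⟩
    show ∀ y, ⁅x * a ^ i, y⁆ ∈ Subgroup.zpowers (φ (x * a ^ i))
    have hφu : φ (x * a ^ i) = φ x := by
      rw [map_mul, map_pow, show φ a = 1 from commutatorElement_self a, one_pow, mul_one]
    rw [hφu]
    let W : Subgroup G :=
      { carrier := {y | ⁅x * a ^ i, y⁆ ∈ Subgroup.zpowers (φ x)}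
        one_mem' := by simp only [Set.mem_setOf_eq]; rw [commutatorElement_one_right]; exact one_mem _
        mul_mem' := fun {y z} hy hz => by
          simp only [Set.mem_setOf_eq] at hy hz ⊢
          rw [comm_mul_right (hcC (hcz _ z))]; exact mul_mem hy hz
        inv_mem' := fun {y} hy => by
          simp only [Set.mem_setOf_eq] at hy ⊢
          have h1 := comm_mul_right (x := x * a ^ i) (y := y⁻¹) (z := y) (hcC (hcz _ y))
          rw [inv_mul_cancel, commutatorElement_one_right] at h1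
          rw [eq_inv_of_mul_eq_one_left h1.symm]
          exact inv_mem hy }
    set Bd := (Subgroup.zpowers (φ x) ⊔ Subgroup.zpowers (φ y0)).comap φ
    have hW : ∀ y, y ∉ Bd → y ∈ W := by
      intro y hy
      show ⁅x * a ^ i, y⁆ ∈ Subgroup.zpowers (φ x)
      rw [comm_mul_left (hcC (hcz (a ^ i) y)), hφap, ← hi]
      exact key y hy
    have hBd : Bd ≠ ⊤ := fun e => hDcard x y0 (by
        rintro _ ⟨g, rfl⟩
        exact (e ▸ Subgroup.mem_top g : g ∈ Bd))
    intro y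
    obtain ⟨z, hz⟩ : ∃ z, z ∉ Bd := by
      by_contra! hh; exact hBd (eq_top_iff.2 fun z _ => hh z)
    show y ∈ W
    by_cases hy : y ∈ Bd
    · have h1 := hW (y * z) fun h => hz (by have := mul_mem (inv_mem hy) h; rwa [inv_mul_cancel_left] at this)
      have := mul_mem h1 (inv_mem (hW z hz))
      rwa [mul_inv_cancel_right] at this
    · exact hW y hy
  -- they commute
  have hUcomm : ∀ u ∈ U, ∀ v ∈ U, u * v = v * u := by
    have hindep : ∀ u ∈ U, ∀ v ∈ U, φ v ≠ 1 → φ v ∉ Subgroup.zpowers (φ u) → ⁅u, v⁆ = 1 := by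
      intro u hu v hv hv1 hnot
      have h1 : ⁅u, v⁆ ∈ Subgroup.zpowers (φ u) := hu v
      have h2 : ⁅u, v⁆ ∈ Subgroup.zpowers (φ v) := by
        rw [← commutatorElement_inv]; exact inv_mem (hv u)
      obtain ⟨j, hj⟩ := h2
      by_contra hne
      refine hnot ((hdiv _ _ j (hφp v) (by rw [show φ v ^ j = ⁅u, v⁆ from hj]; exact h1)).resolve_right fun hd => hne ?_)
      rw [← hj]; exact hdvd1 v j hd
    intro u hu v hv
    rw [← commutatorElement_eq_one_iff_mul_comm]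
    by_cases hu1 : φ u = 1
    · have h := hu v
      rwa [hu1, Subgroup.zpowers_one_eq_bot, Subgroup.mem_bot] at h
    by_cases hv1 : φ v = 1
    · have h := hv u
      rw [hv1, Subgroup.zpowers_one_eq_bot, Subgroup.mem_bot] at h
      rw [← commutatorElement_inv, h, inv_one]
    by_cases hnot : φ v ∉ Subgroup.zpowers (φ u)
    · exact hindep u hu v hv hv1 hnot
    rw [not_not] at hnot
    obtain ⟨j, hj : φ u ^ j = φ v⟩ :=
      (isOfFinOrder_of_finite (φ u)).mem_powers_iff_mem_zpowers.2 hnot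
    obtain ⟨_, ⟨z, rfl⟩, hz⟩ := SetLike.not_le_iff_exists.1 (show ¬ E ≤ Subgroup.zpowers (φ u) from fun hh => by
      have := Subgroup.card_le_of_le hh
      rw [hk, Nat.card_zpowers, orderOf_eq_prime (hφp u) hu1] at this
      have := (Nat.pow_le_pow_right hp.pos hk3).trans this
      nlinarith [hp.two_le, Nat.mul_le_mul hp.two_le hp.two_le])
    have hz1 : φ z ≠ 1 := fun e => hz (e ▸ one_mem _)
    obtain ⟨iw, hw⟩ := hrep z hz1
    set w := z * a ^ iw
    have hφw : φ w = φ z := by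
      rw [map_mul, map_pow, show φ a = 1 from commutatorElement_self a, one_pow, mul_one]
    have huw := hindep u hu w hw (hφw ▸ hz1) (hφw ▸ hz)
    have hvw := hindep v hv w hw (hφw ▸ hz1) (fun h => hz (hφw ▸ (Subgroup.zpowers_le.2 hnot) h))
    have hm : (u ^ j)⁻¹ * v ∈ A := by
      rw [← hφker, MonoidHom.mem_ker, map_mul, map_inv, map_pow, hj, inv_mul_cancel]
    obtain ⟨t, ht⟩ := hAgen _ hm
    have hv' : v = u ^ j * ((u ^ j)⁻¹ * v * (a ^ t)⁻¹) * a ^ t := by group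
    rw [hv', comm_mul_left (hcC (hcz _ _)), comm_mul_left (hcC (hcz _ _)),
      commutatorElement_pow_left (hcC (hcz u w)), huw, one_pow, one_mul,
      commutatorElement_eq_one_iff_mul_comm.2 (hcC (hKZ ht) w).symm, one_mul, hφap, inv_eq_one, hφw] at hvw
    have htp : p ∣ t := orderOf_eq_prime (hφp z) hz1 ▸ orderOf_dvd_of_pow_eq_one hvw
    obtain ⟨t', rfl⟩ := htp
    rw [hv', commutatorElement_eq_one_iff_mul_comm]
    have c1 : Commute u (u ^ j) := (Commute.refl u).pow_right j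
    have c2 : Commute u ((u ^ j)⁻¹ * v * (a ^ (p * t'))⁻¹) := hcC (hKZ ht) u
    have c3 : Commute u (a ^ (p * t')) := by rw [pow_mul]; exact hcC (pow_mem hap t') u
    exact ((c1.mul_right c2).mul_right c3).eq
  set H := Subgroup.closure U with hH
  have hHab : ∀ u ∈ H, ∀ v ∈ H, u * v = v * u := by
    haveI := Subgroup.isMulCommutative_closure hUcomm
    exact fun u hu v hv => congrArg Subtype.val (IsMulCommutative.is_comm.comm (⟨u, hu⟩ : H) ⟨v, hv⟩)
  have hZU : Subgroup.center G ≤ H := fun z hz => Subgroup.subset_closure fun y => by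
    rw [commutatorElement_eq_one_iff_mul_comm.2 (hcC hz y).symm]; exact one_mem _
  haveI hHn : H.Normal := ⟨fun u hu g => by
    rw [show g * u * g⁻¹ = ⁅g, u⁆ * u by simp only [commutatorElement_def]; group]
    exact mul_mem (hZU (hcz g u)) hu⟩
  have hgenH : ∀ g : G, ∃ j : ℕ, g * a ^ j ∈ H := by
    intro g
    by_cases hg : φ g = 1
    · obtain ⟨j, hj⟩ := hAgen g (by rw [← hφker]; exact hg)
      refine ⟨j * (p - 1), ?_⟩
      rw [show g * a ^ (j * (p - 1)) = g * (a ^ j)⁻¹ * (a ^ p) ^ j by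
        rw [← pow_mul, mul_assoc, ← zpow_natCast a (j * (p - 1)), ← zpow_natCast a j, ← zpow_natCast a (p * j),
          ← zpow_neg, ← zpow_add]
        congr 2
        push_cast [Nat.cast_sub hp.one_le]
        ring]
      exact hZU (mul_mem (hKZ hj) (pow_mem hap j))
    · obtain ⟨i, hi⟩ := hrep g hg
      exact ⟨i, Subgroup.subset_closure hi⟩
  refine ⟨H, hHn, hHab, ?_⟩
  have haH : a ∉ H := fun haH => by
    obtain ⟨x, y, hxy⟩ := hG
    refine hxy (hHab x ?_ y ?_) <;>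
    · obtain ⟨j, hj⟩ := hgenH _
      have := mul_mem hj (inv_mem (pow_mem haH j))
      rwa [mul_inv_cancel_right] at this
  rw [Subgroup.index_eq_card, Nat.card_eq_of_bijective (α := Subgroup.zpowers (QuotientGroup.mk' H a))
    Subtype.val ⟨Subtype.val_injective, fun q => ⟨⟨q, ?_⟩, rfl⟩⟩ |>.symm]
  · rw [Nat.card_zpowers]
    refine orderOf_eq_prime ?_ fun e => haH ((QuotientGroup.eq_one_iff _).1 e)
    rw [← map_pow, QuotientGroup.mk'_apply, QuotientGroup.eq_one_iff]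
    exact hZU hap
  · obtain ⟨g, rfl⟩ := QuotientGroup.mk'_surjective H q
    obtain ⟨j, hj⟩ := hgenH g
    refine ⟨-(j : ℤ), ?_⟩
    show (QuotientGroup.mk' H a) ^ (-(j : ℤ)) = _
    rw [zpow_neg, zpow_natCast]
    symm
    rw [eq_inv_iff_mul_eq_one, ← map_pow, ← map_mul, QuotientGroup.mk'_apply, QuotientGroup.eq_one_iff]
    exact hj

end CfsgLib.TwoDegrees
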