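import Cfsg.Agent.Chars.TwoDegrees.Coprime
import Mathlib.Tactic.Group

/-!
# A self-centralising abelian subgroup whose linear characters have orbits of prime size
-/

set_option autoImplicit false

namespace CfsgLib.TwoDegrees

open Cfsg CfsgLib.Chars
open scoped commutatorElement

universe u

variable {G : Type u} [Group G] [Finite G]

/-- The hypotheses. -/
structure Orbits (A : Subgroup G) [A.Normal] (p : ℕ) : Prop where
  ab : ∀ a ∈ A, ∀ b ∈ A, a * b = b * a
  self_cent : ∀ x : G, (∀ a ∈ A, x * a = a * x) → x ∈ A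
  comm_mem : ∀ x y : G, ⁅x, y⁆ ∈ A
  index_eq : ∀ μ : A →* ℂˣ, stab A μ ≠ ⊤ → (stab A μ).index = p
  ext_one : ∀ μ : A →* ℂˣ, stab A μ ≠ ⊤ → ∀ x ∈ stab A μ, ∀ y ∈ stab A μ,
    μ ⟨⁅x, y⁆, comm_mem x y⟩ = 1

/-- Linear characters separate the elements outside a subgroup of an abelian group. -/
theorem exists_linear_sep {A : Subgroup G} (hab : ∀ a ∈ A, ∀ b ∈ A, a * b = b * a)
    (D : Subgroup A) {w : A} (hw : w ∉ D) : ∃ μ : A →* ℂˣ, (∀ d ∈ D, μ d = 1) ∧ μ w ≠ 1 := by
  haveI : D.Normal := ⟨fun d hd g => by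
    rw [show g * d * g⁻¹ = d from Subtype.ext (by
      show (g : G) * d * (g : G)⁻¹ = d
      rw [hab _ g.2 _ d.2, mul_inv_cancel_right])]
    exact hd⟩
  have hnot : QuotientGroup.mk' D w ∉ commutator (A ⧸ D) := by
    have hb : commutator (A ⧸ D) = ⊥ := commutator_eq_bot_iff.2 fun θ => by
      haveI : IsMulCommutative (A ⧸ D) := ⟨⟨fun a b => by
        obtain ⟨a, rfl⟩ := QuotientGroup.mk'_surjective D a
        obtain ⟨b, rfl⟩ := QuotientGroup.mk'_surjective D b
        rw [← map_mul, ← map_mul]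
        exact congrArg _ (Subtype.ext (hab _ a.2 _ b.2))⟩⟩
      exact map_one_eq_one_of_isMulCommutative θ
    rw [hb, Subgroup.mem_bot]
    exact fun e => hw ((QuotientGroup.eq_one_iff w).1 e)
  obtain ⟨l, hl⟩ := exists_linChar_ne_one hnot
  refine ⟨l.comp (QuotientGroup.mk' D), fun d hd => ?_, hl⟩
  rw [MonoidHom.comp_apply, show QuotientGroup.mk' D d = 1 from (QuotientGroup.eq_one_iff d).2 hd,
    map_one]

section Dual

/- Identities in the dual group, stated with the instances found at `M →* ℂˣ`. -/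

variable {M : Type u} [Group M] (l a b : M →* ℂˣ) (i j : ℕ)

theorem dual_mul_one : l * 1 = l := mul_one l
theorem dual_pow_zero : l ^ 0 = 1 := pow_zero l
theorem dual_one_pow : (1 : M →* ℂˣ) ^ i = 1 := MonoidHom.ext fun x => by simp
theorem dual_pow_succ' : l ^ (i + 1) = l * l ^ i := pow_succ' l i
theorem dual_pow_mul : l ^ (i * j) = (l ^ i) ^ j := pow_mul l i j
theorem dual_mul_assoc : l * a * b = l * (a * b) := mul_assoc l a b

end Dual

variable {A : Subgroup G} [A.Normal] {p : ℕ} [Fact p.Prime]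

theorem Orbits.swap (O : Orbits A p) (g k : G) (μ : A →* ℂˣ) :
    act A g (act A k μ) = act A k (act A g μ) := by
  rw [← act_mul, ← act_mul, show g * k = k * g * ⁅g⁻¹, k⁻¹⁆ by
    simp only [commutatorElement_def]; group, act_mul _ (k * g)]
  congr 1
  exact (mem_stab A).1 (le_stab A O.ab μ (O.comm_mem _ _))

theorem Orbits.stab_normal (O : Orbits A p) (μ : A →* ℂˣ) : (stab A μ).Normal := by
  refine ⟨fun g hg x => ?_⟩
  have h : ⁅x, g⁆ * g = x * g * x⁻¹ := by simp only [commutatorElement_def]; group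
  rw [← h]
  exact mul_mem (le_stab A O.ab μ (O.comm_mem x g)) hg

/-- A subgroup of index `p` with an element outside it. -/
theorem exists_pow_mem {S : Subgroup G} (hS : S.Normal) (hi : S.index = p) {x : G} (hx : x ∉ S)
    (g : G) : ∃ j : ℕ, g * x ^ j ∈ S := by
  haveI := hS
  have hq : Nat.card (G ⧸ S) = p := by rw [← Subgroup.index_eq_card, hi]
  have hx1 : (QuotientGroup.mk' S x) ≠ 1 := fun e => hx ((QuotientGroup.eq_one_iff x).1 e)
  obtain ⟨j, hj⟩ : ∃ j : ℕ, (QuotientGroup.mk' S x) ^ j = (QuotientGroup.mk' S g)⁻¹ :=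
    (isOfFinOrder_of_finite _).mem_powers_iff_mem_zpowers.2
      (mem_zpowers_of_prime_card hq hx1)
  exact ⟨j, (QuotientGroup.eq_one_iff _).1 (by
    show QuotientGroup.mk' S (g * x ^ j) = 1
    rw [map_mul, map_pow, hj, mul_inv_cancel])⟩

theorem Orbits.powp_mem (O : Orbits A p) (μ : A →* ℂˣ) (g : G) : g ^ p ∈ stab A μ := by
  by_cases h : stab A μ = ⊤
  · rw [h]; trivial
  haveI := O.stab_normal μ
  exact O.index_eq μ h ▸ (stab A μ).pow_index_mem g

/-- Two characters with different stabilisers are moved along the same fixed character. -/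
theorem Orbits.pair (O : Orbits A p) {l μ : A →* ℂˣ} (hl : stab A l ≠ ⊤) (hμ : stab A μ ≠ ⊤)
    (hne : stab A l ≠ stab A μ) :
    ∃ c : A →* ℂˣ, c ≠ 1 ∧ c ^ p = 1 ∧ (∀ g : G, act A g c = c) ∧
      (∀ g : G, ∃ i : ℕ, act A g l = l * c ^ i) ∧ (∀ g : G, ∃ i : ℕ, act A g μ = μ * c ^ i) := by
  have hp : p.Prime := Fact.out
  have hnS := O.stab_normal l
  have hnT := O.stab_normal μ
  have hidxS := O.index_eq l hl
  have hidxT := O.index_eq μ hμ
  have hmax : ∀ {S T : Subgroup G}, S.index = p → T.index = p → S ≠ T → ∃ x, x ∈ S ∧ x ∉ T := by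
    intro S T hS hT hST
    by_contra! hall
    apply hST
    refine Subgroup.eq_of_le_of_card_ge hall ?_
    have e1 := T.card_mul_index
    rw [← S.card_mul_index, hT, hS] at e1
    exact (Nat.eq_of_mul_eq_mul_right hp.pos e1).le
  obtain ⟨x, hxS, hxT⟩ := hmax hidxS hidxT hne
  obtain ⟨y, hyT, hyS⟩ := hmax hidxT hidxS hne.symm
  set R := stab A (l * μ) with hR
  have hxR : x ∉ R := fun hx => hxT <| by
    rw [mem_stab] at hx hxS ⊢
    rw [act_hom, hxS] at hx
    exact mul_left_cancel hx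
  have hRtop : R ≠ ⊤ := fun e => hxR (e ▸ Subgroup.mem_top x)
  obtain ⟨j, hj⟩ := exists_pow_mem (O.stab_normal _) (O.index_eq _ hRtop) hxR y
  have hxjS : act A (x ^ j) l = l := (mem_stab A).1 (pow_mem hxS j)
  have hyμ : act A y (act A (x ^ j) μ) = act A (x ^ j) μ := by
    rw [O.swap, (mem_stab A).1 hyT]
  have e : act A y l * act A (x ^ j) μ = l * μ := by
    have := (mem_stab A).1 hj
    rwa [act_mul, act_hom, act_hom, hxjS, hyμ] at this
  set c := act A y l * l⁻¹ with hc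
  have hyl : act A y l = l * c := MonoidHom.ext fun a => by simp [hc, mul_comm]
  have hcμ : act A (x ^ j) μ = μ * c⁻¹ := by
    refine mul_left_cancel (a := act A y l) (e.trans ?_)
    rw [hyl]
    exact MonoidHom.ext fun a => by simp [mul_assoc, mul_left_comm (c a)]
  have hact_inv : ∀ (g : G) (ν : A →* ℂˣ), act A g ν⁻¹ = (act A g ν)⁻¹ := fun g ν => rfl
  have hcS : ∀ s ∈ stab A l, act A s c = c := fun s hs => by
    rw [hc, act_hom, hact_inv, O.swap, (mem_stab A).1 hs]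
  have hcT : ∀ s ∈ stab A μ, act A s c = c := fun s hs => by
    have e2 : c = μ * (act A (x ^ j) μ)⁻¹ := by
      rw [hcμ]
      exact MonoidHom.ext fun a => by simp
    rw [e2, act_hom, hact_inv, O.swap, (mem_stab A).1 hs]
  have hfix : ∀ g : G, act A g c = c := by
    intro g
    obtain ⟨i, hi⟩ := exists_pow_mem hnT hidxT hxT g
    have hxi : act A (x ^ i) c = c := hcS _ (pow_mem hxS i)
    have := hcT _ hi
    rwa [act_mul, hxi] at this
  have hc1 : c ≠ 1 := fun h1 => hyS ((mem_stab A).2 (by rw [hyl, h1, dual_mul_one]))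
  have hypow : ∀ i : ℕ, act A (y ^ i) l = l * c ^ i := by
    intro i
    induction i with
    | zero => rw [pow_zero, act_one, dual_pow_zero, dual_mul_one]
    | succ i ih => rw [pow_succ', act_mul, ih, act_hom, hyl, show act A y (c ^ i) = c ^ i from
        (map_pow (MonoidHom.mk' (act A y) (act_hom A y)) c i).trans (congrArg (· ^ i) (hfix y)),
        dual_pow_succ', dual_mul_assoc]
  have hxpow : ∀ i : ℕ, act A ((x ^ j) ^ i) μ = μ * c⁻¹ ^ i := by
    intro i
    induction i with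
    | zero => rw [pow_zero, act_one, dual_pow_zero, dual_mul_one]
    | succ i ih => rw [pow_succ', act_mul, ih, act_hom, hcμ, show act A (x ^ j) (c⁻¹ ^ i) = c⁻¹ ^ i from
        (map_pow (MonoidHom.mk' (act A (x ^ j)) (act_hom A (x ^ j))) c⁻¹ i).trans
          (congrArg (· ^ i) (by show act A (x ^ j) c⁻¹ = c⁻¹; rw [hact_inv, hfix])),
        dual_pow_succ', dual_mul_assoc]
  have hcp : c ^ p = 1 := by
    have h1 := hypow p
    rw [(mem_stab A).1 (O.powp_mem l y)] at h1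
    exact mul_left_cancel (a := l) (h1.symm.trans (mul_one l).symm)
  refine ⟨c, hc1, hcp, hfix, fun g => ?_, fun g => ?_⟩
  · obtain ⟨i, hi⟩ := exists_pow_mem hnS hidxS hyS g⁻¹
    refine ⟨i, ?_⟩
    have h1 : act A g (act A (g⁻¹ * y ^ i) l) = act A g l := by rw [(mem_stab A).1 hi]
    rw [← act_mul, mul_inv_cancel_left] at h1
    rw [← h1, hypow]
  · have hxjT : x ^ j ∉ stab A μ := fun h => hc1 <| by
      have := hcμ.symm.trans ((mem_stab A).1 h)
      exact inv_eq_one.1 (mul_left_cancel (a := μ) (this.trans (mul_one μ).symm))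
    obtain ⟨i, hi⟩ := exists_pow_mem hnT hidxT hxjT g⁻¹
    refine ⟨i * (p - 1), ?_⟩
    have h1 : act A g (act A (g⁻¹ * (x ^ j) ^ i) μ) = act A g μ := by rw [(mem_stab A).1 hi]
    rw [← act_mul, mul_inv_cancel_left] at h1
    rw [← h1, hxpow]
    congr 1
    have h2 : c⁻¹ = c ^ (p - 1) := inv_eq_of_mul_eq_one_right (a := c) (b := c ^ (p - 1)) (by
      rw [← dual_pow_succ', Nat.sub_add_cancel hp.one_le, hcp])
    rw [h2, ← dual_pow_mul, mul_comm]

/-- Either all stabilisers agree, or every character is moved along one fixed character. -/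
theorem Orbits.dichotomy (O : Orbits A p) :
    (∀ l μ : A →* ℂˣ, stab A l ≠ ⊤ → stab A μ ≠ ⊤ → stab A l = stab A μ) ∨
      ∃ c : A →* ℂˣ, c ≠ 1 ∧ c ^ p = 1 ∧ (∀ g : G, act A g c = c) ∧
        ∀ (μ : A →* ℂˣ) (g : G), ∃ i : ℕ, act A g μ = μ * c ^ i := by
  have hp : p.Prime := Fact.out
  by_cases hall : ∀ l μ : A →* ℂˣ, stab A l ≠ ⊤ → stab A μ ≠ ⊤ → stab A l = stab A μ
  · exact Or.inl hall
  push Not at hall
  obtain ⟨l, μ, hl, hμ, hne⟩ := hall
  obtain ⟨c, hc1, hcp, hfix, hcl, hcm⟩ := O.pair hl hμ hne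
  refine Or.inr ⟨c, hc1, hcp, hfix, fun ν g => ?_⟩
  have hpm : ∀ (d : A →* ℂˣ) (a b : ℕ), d ^ (a * b) = (d ^ a) ^ b := fun d a b => pow_mul d a b
  have hp0 : ∀ (d : A →* ℂˣ), d ^ 0 = 1 := fun d => pow_zero d
  have h1p : ∀ n : ℕ, (1 : A →* ℂˣ) ^ n = 1 := fun n => dual_one_pow n
  by_cases hν : stab A ν = ⊤
  · exact ⟨0, by rw [hp0, dual_mul_one, (mem_stab A).1 (hν ▸ Subgroup.mem_top g)]⟩
  have main : ∀ κ : A →* ℂˣ, stab A κ ≠ ⊤ → (∀ g, ∃ i : ℕ, act A g κ = κ * c ^ i) →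
      stab A ν ≠ stab A κ → ∃ i : ℕ, act A g ν = ν * c ^ i := by
    intro κ hκ hκc hne'
    obtain ⟨d, hd1, hdp, -, hdν, hdκ⟩ := O.pair hν hκ hne'
    obtain ⟨h, hh⟩ : ∃ h, h ∉ stab A κ := by
      by_contra! hh; exact hκ (eq_top_iff.2 fun z _ => hh z)
    obtain ⟨i, hi⟩ := hκc h
    obtain ⟨i', hi'⟩ := hdκ h
    have hee : c ^ i = d ^ i' := mul_left_cancel (hi.symm.trans hi')
    have hi'p : ¬ p ∣ i' := by
      rintro ⟨t, rfl⟩
      apply hh
      rw [mem_stab, hi', hpm, hdp, h1p, dual_mul_one]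
    obtain ⟨k, hk⟩ := exists_pow_eq_self_of_coprime (x := d) (n := i')
      (by rw [orderOf_eq_prime hdp hd1]; exact (hp.coprime_iff_not_dvd.2 hi'p).symm)
    obtain ⟨a, ha⟩ := hdν g
    refine ⟨i * k * a, ?_⟩
    rw [ha, hpm, hpm, hee, hk]
  by_cases h' : stab A ν = stab A l
  · exact main μ hμ hcm (by rw [h']; exact hne)
  · exact main l hl hcl h'

end CfsgLib.TwoDegrees
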